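import Cfsg.Agent.TwoFact.Basic
import Cfsg.Agent.EvenLocal.Involved
import Cfsg.Agent.PSLTwo25.DicksonBound
import Cfsg.Agent.Suzuki.PartData
import Cfsg.Agent.Suzuki.Maximal
import Cfsg.Agent.Suzuki.LieModel

/-!
Simple sections of groups without section `S₃` whose composition factors are Suzuki groups or
`PSL₂(3^odd)`.
-/

set_option autoImplicit false
set_option linter.style.haveILetI false
set_option linter.unusedSectionVars false

namespace Cfsg.Agent.TwoFact

universe u v

open Cfsg (IsSuzukiOrPSL2OddPowerThree)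

/-- `D₆ ≅ S₃`. -/
theorem dihedral_three_iso : Nonempty (DihedralGroup 3 ≃* Equiv.Perm (Fin 3)) := by
  let f : DihedralGroup 3 → Equiv.Perm (Fin 3) := fun
    | .r i => finRotate 3 ^ i.val
    | .sr i => Equiv.swap 0 1 * finRotate 3 ^ i.val
  exact ⟨MulEquiv.ofBijective (MonoidHom.mk' f (by decide +kernel)) (by decide +kernel)⟩

/-- An inverted element of order three gives a section `S₃`. -/
theorem involves_three_of_inverted {G : Type u} [Group G] [Finite G] {x y : G} (hx : x * x = 1)
    (hy : y ^ 3 = 1) (hy1 : y ≠ 1) (hxy : x * y * x⁻¹ = y⁻¹) :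
    Cfsg.Involves (Equiv.Perm (Fin 3)) G := by
  haveI : Fact (Nat.Prime 3) := ⟨Nat.prime_three⟩
  obtain ⟨e⟩ := dihedral_three_iso
  refine EvenLocal.involves_congr e (EvenLocal.involves_of_inverted (p := 3) (by norm_num) ?_ ?_
    hy1 hxy)
  · obtain ⟨i, -, hi⟩ := (Nat.dvd_prime_pow Nat.prime_two (m := 1)).1
      (show orderOf x ∣ 2 ^ 1 from orderOf_dvd_of_pow_eq_one (by rw [pow_one, sq, hx]))
    exact ⟨i, hi⟩
  · obtain ⟨i, -, hi⟩ := (Nat.dvd_prime_pow Nat.prime_three (m := 1)).1
      (show orderOf y ∣ 3 ^ 1 from orderOf_dvd_of_pow_eq_one (by rw [pow_one, hy]))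
    exact ⟨i, hi⟩

theorem involves_of_injective {G : Type u} [Group G] {H : Type v} [Group H] {X : Type} [Group X]
    (f : H →* G) (hf : Function.Injective f) (h : Cfsg.Involves X H) : Cfsg.Involves X G :=
  EvenLocal.involves_of_involves_image (MonoidHom.ofInjective hf).symm.toMonoidHom
    (MonoidHom.ofInjective hf).symm.surjective h

/-- The class is invariant under isomorphism. -/
theorem ktype_congr {X : Type u} [Group X] {Y : Type v} [Group Y] (e : X ≃* Y)
    (h : IsSuzukiOrPSL2OddPowerThree Y) : IsSuzukiOrPSL2OddPowerThree X := by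
  rcases h with ⟨F, i1, i2, m, hm, hc, ⟨f⟩⟩ | ⟨F, i1, i2, n, hc, ⟨f⟩⟩
  · exact .inl ⟨F, i1, i2, m, hm, hc, ⟨e.trans f⟩⟩
  · exact .inr ⟨F, i1, i2, n, hc, ⟨e.trans f⟩⟩

theorem sec_data_congr {X : Type u} [Group X] {Y : Type v} [Group Y] (e : X ≃* Y)
    (h1 : IsSimpleGroup X) (h2 : ¬ IsMulCommutative X) :
    IsSimpleGroup Y ∧ ¬ IsMulCommutative Y := by
  haveI : Nontrivial Y := e.symm.toEquiv.nontrivial
  refine ⟨IsSimpleGroup.isSimpleGroup_of_surjective e.toMonoidHom e.surjective, fun hc => h2 ?_⟩
  exact ⟨⟨fun a b => e.injective (by rw [map_mul, map_mul, hc.is_comm.comm])⟩⟩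

variable {X : Type u} [Group X]

/-- Transport of the section class to an isomorphic group in another universe. -/
theorem secK_of_mulEquiv' {Y : Type v} [Group Y] (e : X ≃* Y) (h : SecK Y) : SecK X := by
  intro H N _ hs hn
  let f := H.equivMapOfInjective e.toMonoidHom e.injective
  let π : H.map e.toMonoidHom →* H ⧸ N := (QuotientGroup.mk' N).comp f.symm.toMonoidHom
  have hπ : Function.Surjective π := (QuotientGroup.mk'_surjective N).comp f.symm.surjective
  let q := QuotientGroup.quotientKerEquivOfSurjective π hπ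
  obtain ⟨h1, h2⟩ := sec_data_congr q.symm hs hn
  exact ktype_congr q.symm (h _ π.ker h1 h2)

/-- A simple non-abelian image of a subgroup is a section. -/
theorem secK_apply (h : SecK X) {H : Subgroup X} {S : Type u} [Group S] (π : H →* S)
    (hπ : Function.Surjective π) (hs : IsSimpleGroup S) (hn : ¬ IsMulCommutative S) :
    IsSuzukiOrPSL2OddPowerThree S := by
  let q : H ⧸ π.ker ≃* S := QuotientGroup.quotientKerEquivOfSurjective π hπ
  obtain ⟨h1, h2⟩ := sec_data_congr q.symm hs hn
  exact ktype_congr q.symm (h H π.ker h1 h2)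

/-- A group whose proper subgroups are soluble or sectionwise of the class is so as well. -/
theorem secK_of_subgroups (htop : IsSuzukiOrPSL2OddPowerThree X) [IsSimpleGroup X]
    (h : ∀ H : Subgroup X, H ≠ ⊤ → Group.IsSolvable H ∨ SecK H) : SecK X := by
  intro H N _ hs hn
  by_cases hH : H = ⊤
  · subst hH
    haveI : IsSimpleGroup (⊤ : Subgroup X) := by
      haveI : Nontrivial (⊤ : Subgroup X) := Subgroup.topEquiv.toEquiv.nontrivial
      exact IsSimpleGroup.isSimpleGroup_of_surjective (Subgroup.topEquiv (G := X)).symm.toMonoidHom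
        (Subgroup.topEquiv (G := X)).symm.surjective
    rcases Subgroup.Normal.eq_bot_or_eq_top (H := N) inferInstance with hN | hN
    · exact ktype_congr ((QuotientGroup.quotientMulEquivOfEq hN).trans
        (QuotientGroup.quotientBot.trans Subgroup.topEquiv)) htop
    · exfalso
      haveI := hs.toNontrivial
      refine not_subsingleton ((⊤ : Subgroup X) ⧸ N) ⟨fun a b => ?_⟩
      obtain ⟨a, rfl⟩ := QuotientGroup.mk'_surjective N a
      obtain ⟨b, rfl⟩ := QuotientGroup.mk'_surjective N b
      exact (QuotientGroup.eq (s := N)).2 (hN ▸ Subgroup.mem_top _)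
  rcases h H hH with hsol | hsec
  · exact absurd (Group.isSolvable_of_surjective (QuotientGroup.mk'_surjective N))
      (fun h' => hn ((IsSimpleGroup.comm_iff_isSolvable (G := H ⧸ N)).2 h' |> fun hc => ⟨⟨hc⟩⟩))
  · exact secK_apply hsec ((QuotientGroup.mk' N).comp (Subgroup.topEquiv (G := H)).toMonoidHom)
      ((QuotientGroup.mk'_surjective N).comp (Subgroup.topEquiv (G := H)).surjective) hs hn

/-- The sections of a group come from a normal subgroup and the quotient. -/
theorem secK_extension [Finite X] (M : Subgroup X) [M.Normal] (hM : SecK M) (hQ : SecK (X ⧸ M)) :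
    SecK X := by
  intro H N _ hs hn
  by_cases hle : M.subgroupOf H ≤ N
  · set π := (QuotientGroup.mk' M).comp H.subtype with hπ
    have hker : π.ker ≤ N := fun x hx => hle (by
      rw [Subgroup.mem_subgroupOf]
      exact (QuotientGroup.eq_one_iff _).1 (MonoidHom.mem_ker.1 hx))
    let g : π.range →* H ⧸ N := (QuotientGroup.lift π.ker (QuotientGroup.mk' N)
      (hker.trans (QuotientGroup.ker_mk' N).ge)).comp
        (QuotientGroup.quotientKerEquivRange π).symm.toMonoidHom
    have hg : Function.Surjective g := fun y => by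
      obtain ⟨x, rfl⟩ := QuotientGroup.mk'_surjective N y
      refine ⟨QuotientGroup.quotientKerEquivRange π (x : H ⧸ π.ker), ?_⟩
      show QuotientGroup.lift π.ker (QuotientGroup.mk' N) (hker.trans (QuotientGroup.ker_mk' N).ge)
        ((QuotientGroup.quotientKerEquivRange π).symm _) = _
      rw [MulEquiv.symm_apply_apply]
      rfl
    exact secK_apply hQ g hg hs hn
  · set π := (QuotientGroup.mk' N).comp (M.subgroupOf H).subtype with hπ
    have hr : π.range = ⊤ := by
      haveI : π.range.Normal := by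
        rw [hπ, MonoidHom.range_comp, Subgroup.range_subtype]
        exact Subgroup.Normal.map inferInstance _ (QuotientGroup.mk'_surjective N)
      refine (Subgroup.Normal.eq_bot_or_eq_top (H := π.range) inferInstance).resolve_left
        fun h => hle fun x hx => ?_
      refine (QuotientGroup.eq_one_iff x).1 (Subgroup.mem_bot.1 (h.le ?_))
      exact ⟨⟨x, hx⟩, rfl⟩
    let K : Subgroup M := H.subgroupOf M
    let g : K →* H ⧸ N := π.comp
      { toFun := fun k => ⟨⟨(k : M), k.2⟩, (k : M).2⟩
        map_one' := rfl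
        map_mul' := fun _ _ => rfl }
    have hg : Function.Surjective g := fun y => by
      obtain ⟨⟨⟨x, hx⟩, hxM⟩, rfl⟩ : y ∈ π.range := hr ▸ Subgroup.mem_top y
      exact ⟨⟨⟨x, hxM⟩, hx⟩, rfl⟩
    exact secK_apply hM g hg hs hn

section PSL

open Matrix Cfsg.Agent.MaxSub.Dickson Cfsg.Agent.PSLTwo25.DicksonPSL

open scoped MatrixGroups

/-- `PGL₂` in characteristic three contains `S₃`. -/
theorem involves_three_pgl (K : Type) [Field K] [Fintype K] [CharP K 3] :
    Cfsg.Involves (Equiv.Perm (Fin 3)) PGL(2, K) := by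
  have hd : ∀ a : K, (a : K) ≠ 0 → (!![a, 0; 0, 1] : Matrix (Fin 2) (Fin 2) K).det ≠ 0 :=
    fun a ha => by simp [Matrix.det_fin_two, ha]
  let x : GL (Fin 2) K := GeneralLinearGroup.mkOfDetNeZero _ (hd (-1) (by simp))
  let y : GL (Fin 2) K := GeneralLinearGroup.mkOfDetNeZero !![1, 1; 0, 1]
    (by simp [Matrix.det_fin_two])
  have h3 : (3 : K) = 0 := by exact_mod_cast CharP.cast_eq_zero K 3
  refine involves_three_of_inverted (x := ProjGenLinGroup.mk x) (y := ProjGenLinGroup.mk y)
    ?_ ?_ ?_ ?_
  · rw [← map_mul]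
    refine (congrArg _ (?_ : x * x = 1)).trans (map_one _)
    ext i j
    fin_cases i <;> fin_cases j <;> simp [x, Matrix.mul_apply, Fin.sum_univ_two]
  · rw [← map_pow]
    refine (congrArg _ (?_ : y ^ 3 = 1)).trans (map_one _)
    ext i j
    fin_cases i <;> fin_cases j <;>
      simp [y, pow_succ, Matrix.mul_apply, Fin.sum_univ_two] <;> linear_combination h3
  · intro h
    rw [ProjGenLinGroup.mk_eq_one, GeneralLinearGroup.center_eq_range_scalar] at h
    obtain ⟨r, hr⟩ := h
    have := congrArg (fun g : GL (Fin 2) K => (g : Matrix (Fin 2) (Fin 2) K) 0 1) hr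
    simp [y] at this
  · rw [← map_inv, ← map_inv, ← map_mul, ← map_mul]
    congr 1
    rw [mul_inv_eq_iff_eq_mul, eq_inv_mul_iff_mul_eq]
    ext i j
    fin_cases i <;> fin_cases j <;> simp [x, y, Matrix.mul_apply, Fin.sum_univ_two]

/-- `PSL₂(3^(2n+1))` without section `S₃` has all simple sections in the class. -/
theorem secK_psl (n : ℕ) : ∀ (F : Type) [Field F] [Fintype F],
    Fintype.card F = 3 ^ (2 * n + 1) →
    ¬ Cfsg.Involves (Equiv.Perm (Fin 3)) (ProjectiveSpecialLinearGroup (Fin 2) F) →
    IsSimpleGroup (ProjectiveSpecialLinearGroup (Fin 2) F) →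
    SecK (ProjectiveSpecialLinearGroup (Fin 2) F) := by
  induction n using Nat.strong_induction_on with
  | _ n ih =>
  intro F _ _ hF h3 hsimp
  classical
  haveI := hsimp
  haveI : Fact (Nat.Prime 3) := ⟨Nat.prime_three⟩
  haveI : CharP F 3 := by
    obtain ⟨p, hp⟩ := CharP.exists F
    haveI := hp
    obtain ⟨k, hpp, hk⟩ := FiniteField.card F p
    rw [hF] at hk
    rwa [(Nat.prime_dvd_prime_iff_eq hpp Nat.prime_three).1
      (hpp.dvd_of_dvd_pow (hk ▸ dvd_pow_self p k.ne_zero))] at hp
  refine secK_of_subgroups (.inr ⟨F, inferInstance, inferInstance, n, hF, ⟨MulEquiv.refl _⟩⟩)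
    fun H hH => ?_
  let ι : ProjectiveSpecialLinearGroup (Fin 2) F →* PGL(2, F) := ProjectiveSpecialLinearGroup.toPGL
  have hι : Function.Injective ι := ProjectiveSpecialLinearGroup.toPGL_injective
  let e : H ≃* H.map ι := H.equivMapOfInjective ι hι
  have hle : H.map ι ≤ lsub F := by
    rw [← range_toPGL]; exact Subgroup.map_le_range _ _
  have hne : H.map ι ≠ lsub F := map_ne_lsub hH
  have hsol : Group.IsSolvable (H.map ι) → Group.IsSolvable H := fun h => by
    haveI := h
    exact Group.isSolvable_of_isSolvable_injective (f := e.toMonoidHom) e.injective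
  let L := AlgebraicClosure F
  rcases solvable_or 3 hle hne with hs | ⟨-, h60⟩ | ⟨-, -, -⟩
  · exact .inl (hsol hs)
  · exfalso
    have h5 : 5 ∣ Nat.card (lsub F) := (by norm_num : 5 ∣ 60).trans
      (h60 ▸ Subgroup.card_dvd_of_le hle)
    have h := (dvd_mul_of_dvd_right h5 _).trans (d_mul_card_lsub (F := F)).dvd
    have hq : Fintype.card F % 5 = 3 ∨ Fintype.card F % 5 = 2 := by
      rw [hF, pow_succ, pow_mul]
      have : ∀ k, (3 ^ 2) ^ k % 5 = 1 ∨ (3 ^ 2) ^ k % 5 = 4 := fun k => by
        induction k with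
        | zero => left; rfl
        | succ k hk => rw [pow_succ, Nat.mul_mod]; omega
      rcases this n with h | h <;> rw [Nat.mul_mod, h] <;> simp
    have h2 : 2 ≤ Fintype.card F := Fintype.one_lt_card
    rcases (Nat.prime_five.dvd_mul.1 h) with h | h
    · rcases Nat.prime_five.dvd_mul.1 h with h | h <;> omega
    · omega
  rcases classifyF (K := L) (p := 3) (H.map ι) with ⟨a, b, m, hp, hc, hab, hl, hdvd⟩ |
    ⟨a, b, m, r, hab, hl, hr, hpr, hdvd, hcard, ⟨iso⟩⟩ | ⟨x, hfix, hp⟩ |
    ⟨hp, hcard, ⟨iso⟩⟩ | ⟨hp, hcard, ⟨iso⟩⟩ | ⟨hp, hcard, ⟨iso⟩⟩ | ⟨F₀, h, h4, he⟩ |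
    ⟨F₀, h, h4, hodd, he⟩
  · haveI := hc
    exact .inl (hsol (Group.isSolvable_of_comm fun u w => (IsCyclic.commGroup).mul_comm u w))
  · have := solvable_dihedral r
    exact .inl (hsol (Group.isSolvable_of_surjective iso.symm.surjective (f := iso.symm.toMonoidHom)))
  · have := solvable_stabilizer x
    exact .inl (hsol (Group.isSolvable_of_isSolvable_injective
      (f := Subgroup.inclusion (show H.map ι ≤ MulAction.stabilizer PGL(2, F) x from
        fun g hg => MulAction.mem_stabilizer_iff.2 (hfix g hg)))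
      (Subgroup.inclusion_injective _)))
  · have := solvable_perm_four
    exact .inl (hsol (Group.isSolvable_of_isSolvable_injective
      (f := (alternatingGroup (Fin 4)).subtype.comp iso.toMonoidHom)
      (Subtype.val_injective.comp iso.injective)))
  · have := solvable_perm_four
    exact .inl (hsol (Group.isSolvable_of_isSolvable_injective (f := iso.toMonoidHom) iso.injective))
  · exfalso
    refine h3 (involves_of_injective (iso.trans (MulEquiv.refl _) |>.symm.toMonoidHom |> fun f =>
      (Subgroup.subtype H).comp (e.symm.toMonoidHom.comp f)) ?_ ?_)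
    · exact Subtype.val_injective.comp (e.symm.injective.comp iso.symm.injective)
    · refine involves_three_of_inverted
        (x := (⟨Equiv.swap 0 1 * Equiv.swap 3 4, by rw [Equiv.Perm.mem_alternatingGroup]; decide +kernel⟩ :
          alternatingGroup (Fin 5)))
        (y := ⟨Equiv.swap 0 1 * Equiv.swap 1 2, by rw [Equiv.Perm.mem_alternatingGroup]; decide +kernel⟩) ?_ ?_ ?_ ?_
      · exact Subtype.ext (by decide +kernel)
      · exact Subtype.ext (by decide +kernel)
      · exact fun h => absurd (congrArg Subtype.val h) (by decide +kernel)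
      · exact Subtype.ext (by decide +kernel)
  · exfalso
    haveI : CharP F₀ 3 := RingHom.charP F₀.subtype F₀.subtype_injective 3
    let g : H.map ι ≃* (subPGL F₀).range :=
      (H.map ι).equivMapOfInjective _ (MulAut.conj h⁻¹).injective |>.trans
        (MulEquiv.subgroupCongr he)
    let f : PGL(2, F₀) →* ProjectiveSpecialLinearGroup (Fin 2) F :=
      H.subtype.comp (e.symm.toMonoidHom.comp (g.symm.toMonoidHom.comp
        (MonoidHom.ofInjective (subPGL_injective F₀)).toMonoidHom))
    exact h3 (involves_of_injective f (Subtype.val_injective.comp (e.symm.injective.comp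
      (g.symm.injective.comp (MulEquiv.injective _)))) (involves_three_pgl F₀))
  · haveI : CharP F₀ 3 := RingHom.charP F₀.subtype F₀.subtype_injective 3
    obtain ⟨k, hk1, hk⟩ := subfield_card_pow F₀
    obtain ⟨j, -, hj⟩ := FiniteField.card F₀ 3
    have hmul : (j : ℕ) * k = 2 * n + 1 := Nat.pow_right_injective (le_of_lt (by norm_num : 2 < 3))
      (by show 3 ^ ((j : ℕ) * k) = 3 ^ (2 * n + 1); rw [← hF, hk, Nat.card_eq_fintype_card, hj, pow_mul])
    obtain ⟨j', hj'⟩ : Odd (j : ℕ) := Nat.Odd.of_mul_left (n := k) ⟨n, hmul⟩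
    have hlt : j' < n := by
      rcases subfield_cases F₀ with hc | hc
      · exact absurd ((subfield_type hle F₀ h (.inr he)).2.2 hc) hne
      · rw [Nat.card_eq_fintype_card, hj, hF, ← pow_mul] at hc
        have := (Nat.pow_le_pow_iff_right (by norm_num : 1 < 3)).1 hc
        omega
    let g : H ≃* ProjectiveSpecialLinearGroup (Fin 2) F₀ :=
      e.trans (((H.map ι).equivMapOfInjective _ (MulAut.conj h⁻¹).injective).trans
        ((MulEquiv.subgroupCongr he).trans (MonoidHom.ofInjective (subPSL_injective F₀)).symm))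
    refine .inr (secK_of_mulEquiv' g ?_)
    refine ih j' hlt F₀ (by rw [hj, hj']) (fun h' => h3 ?_) ?_
    · exact involves_of_injective (H.subtype.comp g.symm.toMonoidHom)
        (Subtype.val_injective.comp g.symm.injective) h'
    · have h4' : 4 ≤ Fintype.card F₀ := by rwa [← Nat.card_eq_fintype_card]
      exact Matrix.ProjectiveSpecialLinearGroup.rank_two_simple (by rwa [Nat.card_eq_fintype_card])

end PSL

section Sz

open Cfsg.Agent.Suzuki

/-- Every simple section of a Suzuki group is a Suzuki group. -/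
theorem secK_sz (m : ℕ) : ∀ (F : Type) [Field F] [Fintype F] [SuzukiField F m],
    SecK (Cfsg.Sz F m) := by
  induction m using Nat.strong_induction_on with
  | _ m ih =>
  intro F _ _ hS
  haveI := sz_isSimple (F := F) (m := m)
  refine secK_of_subgroups (.inl ⟨F, inferInstance, inferInstance, m, hS.one_le, hS.card,
    ⟨szEquivLie F m⟩⟩) fun H hH => ?_
  rcases subgroup_cases H with ⟨U, hU, hle⟩ | ⟨g, K, ⟨s, hs, hs0, hs1⟩, rfl⟩
  · left
    haveI := normalizer_part_isSolvable hU
    exact Group.isSolvable_of_isSolvable_injective (f := Subgroup.inclusion hle)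
      (Subgroup.inclusion_injective _)
  right
  obtain ⟨k, hk, hdvd⟩ := subfield_card K
  haveI : Fintype K := Fintype.ofFinite K
  have hk1 : 1 ≤ k := by
    rcases Nat.eq_zero_or_pos k with rfl | h
    · exfalso
      rw [Nat.mul_zero, Nat.zero_add, pow_one, Nat.card_eq_two_iff' (⟨0, K.zero_mem⟩ : K)] at hk
      obtain ⟨y, -, hy⟩ := hk
      have e1 := hy ⟨s, hs⟩ (fun e => hs0 (congrArg Subtype.val e))
      have e2 := hy ⟨1, K.one_mem⟩ (fun e => one_ne_zero (congrArg Subtype.val e))
      exact hs1 (congrArg Subtype.val (e1.trans e2.symm))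
    · exact h
  haveI : SuzukiField K k := ⟨hk1, by rw [← Nat.card_eq_fintype_card, hk]⟩
  obtain ⟨e⟩ := genSz_equiv (F := F) (m := m) (K' := K) (k := k) hdvd K hk
  have hlt : k < m := by
    refine lt_of_le_of_ne (by have := Nat.le_of_dvd (by omega) hdvd; omega) fun hkm => hH ?_
    rw [eq_top_of_subfield_card (K := K) (by rw [hk, hkm, hS.card]), genSz_top,
      ← MonoidHom.range_eq_map, MonoidHom.range_eq_top]
    exact (MulAut.conj g).surjective
  exact secK_of_mulEquiv' ((((genSz F m K).equivMapOfInjective _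
    (MulAut.conj g).injective).symm).trans e) (ih k hlt K)

end Sz

/-- The simple groups of the class without section `S₃` have all simple sections in it. -/
theorem secK_of_ktype (hK : IsSuzukiOrPSL2OddPowerThree X) [IsSimpleGroup X]
    (h3 : ¬ Cfsg.Involves (Equiv.Perm (Fin 3)) X) : SecK X := by
  rcases hK with ⟨F, _, _, m, hm, hc, ⟨e⟩⟩ | ⟨F, _, _, n, hc, ⟨e⟩⟩
  · haveI : Suzuki.SuzukiField F m := ⟨hm, hc⟩
    exact secK_of_mulEquiv' (e.trans (Suzuki.szEquivLie F m).symm) (secK_sz m F)
  · haveI : Nontrivial (Matrix.ProjectiveSpecialLinearGroup (Fin 2) F) :=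
      e.symm.toEquiv.nontrivial
    exact secK_of_mulEquiv' e (secK_psl n F hc
      (fun h => h3 (involves_of_injective e.symm.toMonoidHom e.symm.injective h))
      (IsSimpleGroup.isSimpleGroup_of_surjective e.toMonoidHom e.surjective))

/-- All simple sections of an `S₃`-free group of the composition class are in the class. -/
theorem secK_of_composition : ∀ {G : Type u} [Group G] [Finite G],
    ¬ Cfsg.Involves (Equiv.Perm (Fin 3)) G →
    Cfsg.IsCompositionKGroupWith IsSuzukiOrPSL2OddPowerThree G → SecK G := by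
  suffices ∀ n, ∀ {G : Type u} [Group G] [Finite G], Nat.card G = n →
      ¬ Cfsg.Involves (Equiv.Perm (Fin 3)) G →
      Cfsg.IsCompositionKGroupWith IsSuzukiOrPSL2OddPowerThree G → SecK G from
    fun {G} _ _ => this _ rfl
  intro n
  induction n using Nat.strong_induction_on with
  | _ n ih =>
  intro G _ _ hcard h3 hc H N _ hs hn
  by_cases hM : ∃ M : Subgroup G, M.Normal ∧ M ≠ ⊥ ∧ M ≠ ⊤
  · obtain ⟨M, hMn, hMb, hMt⟩ := hM
    haveI := hMn
    refine secK_extension M (ih _ ?_ rfl ?_ ?_) (ih _ ?_ rfl ?_ ?_) H N hs hn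
    · rw [← hcard, ← Subgroup.card_top (G := G)]
      exact Set.ncard_lt_ncard (s := (M : Set G)) (t := ((⊤ : Subgroup G) : Set G))
        (SetLike.coe_ssubset_coe.2 hMt.lt_top) |>.trans_le le_rfl
    · exact fun h => h3 (EvenLocal.involves_subgroup h)
    · intro K hK R _ h1 h2
      let e := K.equivMapOfInjective M.subtype M.subtype_injective
      let π : K.map M.subtype →* K ⧸ R := (QuotientGroup.mk' R).comp e.symm.toMonoidHom
      have hπ : Function.Surjective π := (QuotientGroup.mk'_surjective R).comp e.symm.surjective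
      let q := QuotientGroup.quotientKerEquivOfSurjective π hπ
      obtain ⟨g1, g2⟩ := sec_data_congr q.symm h1 h2
      exact ktype_congr q.symm (hc _ (hK.trans' hMn.isSubnormal) π.ker g1 g2)
    · rw [← hcard, Subgroup.card_eq_card_quotient_mul_card_subgroup M]
      exact lt_mul_of_one_lt_right Nat.card_pos ((Subgroup.one_lt_card_iff_ne_bot M).2 hMb)
    · exact fun h => h3 (EvenLocal.involves_of_involves_image
        ((QuotientGroup.mk' M).comp (Subgroup.topEquiv (G := G)).toMonoidHom)
        ((QuotientGroup.mk'_surjective M).comp Subgroup.topEquiv.surjective) h)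
    · intro K hK R _ h1 h2
      let π : K.comap (QuotientGroup.mk' M) →* K ⧸ R :=
        (QuotientGroup.mk' R).comp ((QuotientGroup.mk' M).subgroupComap K)
      have hπ : Function.Surjective π := (QuotientGroup.mk'_surjective R).comp
        ((QuotientGroup.mk' M).subgroupComap_surjective_of_surjective K
          (QuotientGroup.mk'_surjective M))
      let q := QuotientGroup.quotientKerEquivOfSurjective π hπ
      obtain ⟨g1, g2⟩ := sec_data_congr q.symm h1 h2
      exact ktype_congr q.symm (hc _ (hK.comap _) π.ker g1 g2)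
  push_neg at hM
  haveI : Nontrivial G := by
    by_contra h
    rw [not_nontrivial_iff_subsingleton] at h
    haveI := h
    haveI := hs.toNontrivial
    exact not_subsingleton (H ⧸ N) inferInstance
  haveI : IsSimpleGroup G := ⟨fun M hMn => or_iff_not_imp_left.2 (hM M hMn)⟩
  have hnc : ¬ IsMulCommutative G := fun hG => hn ⟨⟨fun a b => by
    obtain ⟨a, rfl⟩ := QuotientGroup.mk'_surjective N a
    obtain ⟨b, rfl⟩ := QuotientGroup.mk'_surjective N b
    rw [← map_mul, ← map_mul]
    exact congrArg _ (Subtype.ext (hG.is_comm.comm (a : G) b))⟩⟩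
  let e : (⊤ : Subgroup G) ⧸ (⊥ : Subgroup (⊤ : Subgroup G)) ≃* G :=
    QuotientGroup.quotientBot.trans Subgroup.topEquiv
  obtain ⟨g1, g2⟩ := sec_data_congr e.symm inferInstance hnc
  exact secK_of_ktype (ktype_congr e.symm (hc ⊤ Subgroup.IsSubnormal.top ⊥ g1 g2)) h3 H N hs hn

end Cfsg.Agent.TwoFact
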