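import Cfsg.Agent.TwoFact.FactsDef
import Cfsg.Agent.TwoFact.SimpleSections
import Cfsg.Agent.SuzukiAut.Out
import Cfsg.Agent.AutPSL.Main
import Cfsg.Agent.AutPSL.Kernel
import Cfsg.Agent.AutPSL.Outer
import Cfsg.Agent.FieldMaps.Additive

/-!
An involutory automorphism of `Sz(q)` or `PSL₂(3^odd)` is inner or, times an inner one, inverts an
element of order three.
-/

set_option autoImplicit false
set_option linter.unusedSectionVars false
set_option linter.style.haveILetI false

namespace Cfsg.Agent.TwoFact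

open Matrix
open scoped MatrixGroups

universe u v

/-- The dichotomy for involutory automorphisms. -/
def AutSplit (Y : Type v) [Group Y] : Prop :=
  ∀ α : MulAut Y, α * α = 1 → (∃ s : Y, α = MulAut.conj s) ∨
    ∃ s t : Y, t ^ 3 = 1 ∧ t ≠ 1 ∧ s * α t * s⁻¹ = t⁻¹

theorem autSplit_of_equiv {X : Type u} [Group X] {Y : Type v} [Group Y] (g : X ≃* Y)
    (h : AutSplit Y) : AutSplit X := by
  intro α hα
  rcases h (MulAut.congr g α) (by rw [← map_mul, hα, map_one]) with ⟨s, hs⟩ | ⟨s, t, h3, h1, hst⟩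
  · refine .inl ⟨g.symm s, MulEquiv.ext fun x => g.injective ?_⟩
    have := DFunLike.congr_fun hs (g x)
    simpa [MulAut.congr] using this
  · refine .inr ⟨g.symm s, g.symm t, ?_, ?_, g.injective ?_⟩
    · rw [← map_pow, h3, map_one]
    · simpa using h1
    · simpa [MulAut.congr] using hst

theorem autSplit_sz {F : Type v} [Field F] [Fintype F] {m : ℕ} [Suzuki.SuzukiField F m]
    [Finite (Cfsg.Sz F m)] : AutSplit (Cfsg.Sz F m) := by
  intro α hα
  have h1 : orderOf (QuotientGroup.mk α : Cfsg.Out (Cfsg.Sz F m)) ∣ 2 :=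
    (orderOf_map_dvd (QuotientGroup.mk' (Cfsg.Inn (Cfsg.Sz F m))) α).trans
      (orderOf_dvd_of_pow_eq_one (by rw [sq]; exact hα))
  have h2 : orderOf (QuotientGroup.mk α : Cfsg.Out (Cfsg.Sz F m)) ∣ 2 * m + 1 := by
    rw [← SuzukiAut.card_out_sz (F := F) (m := m)]; exact orderOf_dvd_natCard _
  have h3 : orderOf (QuotientGroup.mk α : Cfsg.Out (Cfsg.Sz F m)) = 1 :=
    Nat.dvd_one.1 ((Nat.dvd_gcd h1 h2).trans (by
      rw [Nat.coprime_two_left.2 ⟨m, rfl⟩ |>.gcd_eq_one]))
  obtain ⟨s, hs⟩ := (QuotientGroup.eq_one_iff α).1 (orderOf_eq_one_iff.1 h3)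
  exact .inl ⟨s, hs.symm⟩

open AutPSL in
theorem autSplit_psl {F : Type v} [Field F] [Fintype F] {n : ℕ}
    (hF : Fintype.card F = 3 ^ (2 * n + 1)) :
    AutSplit (ProjectiveSpecialLinearGroup (Fin 2) F) := by
  classical
  intro α hα
  haveI : Fact (Nat.Prime 3) := ⟨Nat.prime_three⟩
  haveI : CharP F 3 := charP_of_card_eq_prime_pow hF
  obtain ⟨g, σ, rfl⟩ := exists_decomp_two α
  obtain ⟨k, hk, hk'⟩ := FieldMaps.card_aut (F := F) 3
  have hcard : Nat.card (F ≃+* F) = 2 * n + 1 := by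
    rw [Nat.card_eq_fintype_card, hk']
    exact Nat.pow_right_injective (le_of_lt (by norm_num : 2 < 3)) (hk.symm.trans hF)
  have hσ : σ = 1 := by
    have h1 : conjAut (g * GeneralLinearGroup.map σ.toRingHom g) * fieldAut (σ * σ) =
        conjAut (1 : GL (Fin 2) F) * fieldAut (1 : F ≃+* F) := by
      rw [map_one, map_one, one_mul, ← hα, map_mul, map_mul]
      calc conjAut g * conjAut (GeneralLinearGroup.map σ.toRingHom g) * (fieldAut σ * fieldAut σ)
          = conjAut g * (conjAut (GeneralLinearGroup.map σ.toRingHom g) * fieldAut σ) * fieldAut σ := by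
            group
        _ = _ := by rw [← fieldAut_mul_conjAut]; group
    have h2 := (conj_field_inj (le_refl 2) h1).1
    refine orderOf_eq_one_iff.1 (Nat.dvd_one.1 ((Nat.dvd_gcd
      (orderOf_dvd_of_pow_eq_one (n := 2) (by rw [sq, h2]))
      (hcard ▸ orderOf_dvd_natCard σ)).trans ?_))
    rw [Nat.coprime_two_left.2 ⟨n, rfl⟩ |>.gcd_eq_one]
  subst hσ
  rw [map_one, mul_one]
  have hneg : ¬ IsSquare (-1 : F) := by
    rw [FiniteField.isSquare_neg_one_iff, hF, pow_succ, pow_mul, Nat.mul_mod, Nat.pow_mod]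
    norm_num
  set d := GeneralLinearGroup.det g with hd
  have hdne : (d : F) ≠ 0 := d.ne_zero
  have hsq : IsSquare (d : F) ∨ IsSquare (-(d : F)) := by
    by_contra h
    push Not at h
    have h1 : (quadraticChar F) (d : F) = -1 := quadraticChar_neg_one_iff_not_isSquare.2 h.1
    have h2 : (quadraticChar F) (-(d : F)) = -1 := quadraticChar_neg_one_iff_not_isSquare.2 h.2
    rw [neg_eq_neg_one_mul, map_mul, h1, quadraticChar_neg_one_iff_not_isSquare.2 hneg] at h2
    norm_num at h2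
  have key : ∀ (ε : F), ε * ε = 1 → ∀ c : F, ε * (c * c) = (d : F) →
      ∀ D : GL (Fin 2) F, (D : Matrix (Fin 2) (Fin 2) F) = Matrix.diagonal ![ε, 1] →
      ∃ s : Matrix.SpecialLinearGroup (Fin 2) F,
        conjAut g = MulAut.conj (proj s) * conjAut D := by
    intro ε hε c hc D hD
    have hc0 : c ≠ 0 := fun h => hdne (by rw [← hc, h, mul_zero, mul_zero])
    have hgd : (g : Matrix (Fin 2) (Fin 2) F).det = (d : F) := by rw [hd]; rfl
    let s : Matrix.SpecialLinearGroup (Fin 2) F :=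
      ⟨c⁻¹ • ((g : Matrix (Fin 2) (Fin 2) F) * D), by
        rw [Matrix.det_smul, Matrix.det_mul, hgd, hD, Matrix.det_diagonal, Fintype.card_fin]
        simp only [Fin.prod_univ_two, Matrix.cons_val_zero, Matrix.cons_val_one]
        rw [← hc]
        field_simp
        linear_combination hε⟩
    refine ⟨s, ?_⟩
    have e : g = GeneralLinearGroup.scalar (Fin 2) (Units.mk0 c hc0) * SpecialLinearGroup.toGL s * D := by
      apply Units.ext
      rw [Units.val_mul, Units.val_mul, coe_sc]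
      show _ = _ * (c⁻¹ • ((g : Matrix (Fin 2) (Fin 2) F) * D)) * _
      rw [Matrix.smul_mul, one_mul, smul_smul, Units.val_mk0, mul_inv_cancel₀ hc0, one_smul,
        mul_assoc, hD, Matrix.diagonal_mul_diagonal]
      have e1 : (fun i => ![ε, 1] i * ![ε, 1] i) = (fun _ => (1 : F)) := by
        funext i; fin_cases i <;> simp [hε]
      rw [e1, Matrix.diagonal_one, mul_one]
    conv_lhs => rw [e]
    rw [map_mul, map_mul, conjAut_sc (le_refl 2), one_mul, conjAut_toGL]
  rcases hsq with ⟨c, hc⟩ | ⟨c, hc⟩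
  · obtain ⟨s, hs⟩ := key 1 (one_mul 1) c (by rw [one_mul, hc]) 1 (by
      rw [Units.val_one, ← Matrix.diagonal_one]
      congr 1; funext i; fin_cases i <;> simp)
    exact .inl ⟨proj s, by rw [hs, map_one, mul_one]⟩
  · let D : GL (Fin 2) F := GeneralLinearGroup.mkOfDetNeZero (Matrix.diagonal ![(-1 : F), 1])
      (by simp [Matrix.det_diagonal])
    obtain ⟨s, hs⟩ := key (-1) (by ring) c (by rw [neg_one_mul, ← hc, neg_neg]) D rfl
    let t : Matrix.SpecialLinearGroup (Fin 2) F :=
      SpecialLinearGroup.transvection (show (0 : Fin 2) ≠ 1 by decide) (1 : F)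
    have h3 : (3 : F) = 0 := by simpa using CharP.cast_eq_zero F 3
    have ht : (t : Matrix (Fin 2) (Fin 2) F) = !![1, 1; 0, 1] := by
      show 1 + Matrix.single (0 : Fin 2) 1 (1 : F) = _
      ext i j; fin_cases i <;> fin_cases j <;> simp
    have hflip : conjAut D (proj t) = (proj t)⁻¹ := by
      rw [conjAut_proj, ← map_inv]
      congr 1
      apply Subtype.ext
      rw [slConj_coe, Matrix.SpecialLinearGroup.coe_inv, ht, Matrix.adjugate_fin_two_of]
      have hDD : D * D = 1 := Units.ext (by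
        rw [Units.val_mul, Units.val_one]
        show Matrix.diagonal ![(-1 : F), 1] * Matrix.diagonal ![(-1 : F), 1] = 1
        ext i j; fin_cases i <;> fin_cases j <;> simp [Matrix.mul_apply, Fin.sum_univ_two])
      rw [inv_eq_of_mul_eq_one_right hDD]
      show Matrix.diagonal ![(-1 : F), 1] * !![1, 1; 0, 1] * Matrix.diagonal ![(-1 : F), 1] = _
      ext i j; fin_cases i <;> fin_cases j <;> simp [Matrix.mul_apply, Fin.sum_univ_two]
    refine .inr ⟨(proj s)⁻¹, proj t, ?_, fun h => ?_, ?_⟩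
    · rw [← map_pow, ← map_one proj]
      congr 1
      apply Subtype.ext
      rw [Matrix.SpecialLinearGroup.coe_pow, ht, Matrix.SpecialLinearGroup.coe_one]
      ext i j; fin_cases i <;> fin_cases j <;>
        simp [pow_succ, Matrix.mul_apply, Fin.sum_univ_two]
      linear_combination h3
    · rw [← map_one proj] at h
      obtain ⟨c', hc'⟩ := proj_eq_proj_iff.1 h.symm
      rw [ht, Matrix.SpecialLinearGroup.coe_one] at hc'
      have := congrFun (congrFun hc' 0) 1
      simp at this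
    · rw [hs, MulAut.mul_apply, hflip, MulAut.conj_apply]
      group

/-- Involutions normalising such a subgroup induce inner automorphisms in a group without section
`S₃`. -/
theorem innerFact : InnerFact.{u} := by
  intro X _ _ hS3 T hsimp hnc hK u hu hn
  have hsplit : AutSplit T := by
    rcases hK with ⟨F, i1, i2, m, hm, hF, ⟨f⟩⟩ | ⟨F, i1, i2, n, hF, ⟨f⟩⟩
    · haveI : Suzuki.SuzukiField F m := ⟨hm, hF⟩
      haveI : Finite (Cfsg.Sz F m) :=
        Finite.of_equiv T (f.trans (Suzuki.szEquivLie F m).symm).toEquiv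
      exact autSplit_of_equiv (f.trans (Suzuki.szEquivLie F m).symm) autSplit_sz
    · exact autSplit_of_equiv f (autSplit_psl hF)
  have hu' : u⁻¹ = u := inv_eq_of_mul_eq_one_right hu
  set α : MulAut T := Subgroup.normalizerMonoidHom T ⟨u, hn⟩ with hα
  have hαc : ∀ t : T, ((α t : T) : X) = u * t * u⁻¹ := fun t => rfl
  have hα2 : α * α = 1 := by
    rw [hα, ← map_mul, show (⟨u, hn⟩ * ⟨u, hn⟩ : Subgroup.normalizer (T : Set X)) = 1 from
      Subtype.ext hu, map_one]
  rcases hsplit α hα2 with ⟨s, hs⟩ | ⟨s, t, h3, h1, hst⟩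
  · refine ⟨s, s.2, Subgroup.mem_centralizer_iff.2 fun x hx => ?_⟩
    have h1 : u * ((s : X)⁻¹ * x * s) * u⁻¹ = x := by
      have e := hαc (s⁻¹ * ⟨x, hx⟩ * s)
      rw [hs, MulAut.conj_apply] at e
      simp only [Subgroup.coe_mul, Subgroup.coe_inv] at e
      rw [← e]
      group
    calc x * (u * (s : X)⁻¹) = u * ((s : X)⁻¹ * x * s) * u⁻¹ * (u * (s : X)⁻¹) := by rw [h1]
      _ = _ := by group
  · refine absurd ?_ hS3
    set y : X := (s : X) * u with hy
    have hyt : y * t * y⁻¹ = (t : X)⁻¹ := by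
      have e := congrArg Subtype.val hst
      rw [Subgroup.coe_mul, Subgroup.coe_mul, Subgroup.coe_inv, Subgroup.coe_inv, hαc] at e
      rw [← e, hy]
      group
    have hcomm : Commute (y * y) (t : X) := by
      have h : y * y * t * (y * y)⁻¹ = t := by
        calc y * y * t * (y * y)⁻¹ = y * (y * t * y⁻¹) * y⁻¹ := by group
          _ = y * (t : X)⁻¹ * y⁻¹ := by rw [hyt]
          _ = (y * t * y⁻¹)⁻¹ := by group
          _ = t := by rw [hyt, inv_inv]
      exact mul_inv_eq_iff_eq_mul.1 h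
    obtain ⟨k, m, hm, hkm⟩ : ∃ k m : ℕ, ¬ 2 ∣ m ∧ orderOf y = 2 ^ k * m :=
      ⟨_, _, Nat.not_dvd_ordCompl Nat.prime_two (orderOf_pos _).ne',
        (Nat.ordProj_mul_ordCompl_eq_self (orderOf _) 2).symm⟩
    obtain ⟨j, hj⟩ : Odd m := Nat.odd_iff.2 (Nat.two_dvd_ne_zero.1 hm)
    have hyo : orderOf (y ^ m) = 2 ^ k := by
      rw [orderOf_pow' _ (by omega), hkm, Nat.gcd_eq_right (dvd_mul_left _ _),
        Nat.mul_div_cancel _ (by omega)]
    have hyinv : y ^ m * t * (y ^ m)⁻¹ = (t : X)⁻¹ := by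
      have h := (hcomm.inv_right.pow_left j).eq
      rw [hj, pow_succ, pow_mul, sq]
      calc (y * y) ^ j * y * t * ((y * y) ^ j * y)⁻¹
          = (y * y) ^ j * (y * t * y⁻¹) * ((y * y) ^ j)⁻¹ := by group
        _ = _ := by rw [hyt, h]; group
    haveI : Fact (Nat.Prime 3) := ⟨Nat.prime_three⟩
    obtain ⟨e⟩ := dihedral_three_iso
    refine EvenLocal.involves_congr e (EvenLocal.involves_of_inverted (p := 3) (by norm_num)
      ⟨k, hyo⟩ ?_ (fun h => h1 (Subtype.ext h)) hyinv)
    obtain ⟨i, -, hi⟩ := (Nat.dvd_prime_pow Nat.prime_three (m := 1)).1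
      (show orderOf (t : X) ∣ 3 ^ 1 from orderOf_dvd_of_pow_eq_one
        (by rw [pow_one]; exact congrArg Subtype.val h3))
    exact ⟨i, hi⟩

end Cfsg.Agent.TwoFact
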