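import Cfsg.Agent.TwoFact.Basic
import Cfsg.Agent.TwoF.Main

/-!
The squared offender bound in the form used by the factorisation theorem.
-/

set_option autoImplicit false

namespace Cfsg.Agent.TwoFact

universe u

theorem compositionK_of_secK {X : Type u} [Group X] (h : SecK X) :
    Cfsg.IsCompositionKGroupWith Cfsg.IsSuzukiOrPSL2OddPowerThree X :=
  fun H _ N _ => h H N

theorem twoBound : TwoBound.{u} := by
  intro X _ _ M _ _ φ hinj hM hO hS3 hsec A hA
  have hAc : ∀ a ∈ A, ∀ b ∈ A, a * b = b * a := fun a ha b hb => by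
    have h1 : a⁻¹ = a := inv_eq_of_mul_eq_one_right (hA a ha)
    have h2 : b⁻¹ = b := inv_eq_of_mul_eq_one_right (hA b hb)
    have h3 : (a * b)⁻¹ = a * b := inv_eq_of_mul_eq_one_right (hA _ (A.mul_mem ha hb))
    rw [mul_inv_rev, h1, h2] at h3
    exact h3.symm
  obtain ⟨h1, h2⟩ := TwoF.two_f φ hinj hM hO hS3 (compositionK_of_secK hsec) A hAc hA
  refine ⟨h1, h2.trans (Subgroup.card_le_of_le (iSup₂_le fun a ha => ?_))⟩
  rintro _ ⟨m, rfl⟩
  exact Subgroup.subset_closure ⟨a, ha, m, rfl⟩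

end Cfsg.Agent.TwoFact
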