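import Cfsg.Agent.TwoFact.Closed
import Cfsg.Agent.TwoFact.Bound
import Cfsg.Agent.TwoFact.SimpleSections

/-!
The hypotheses of the factorisation theorem from those on composition factors.
-/

set_option autoImplicit false

namespace Cfsg.Agent.TwoFact

open Cfsg.Agent.CF (IsSec)
open Cfsg.Agent.FusionAux.MinParabolic (Constr)

universe u

theorem hyp_of_composition {G : Type u} [Group G] [Finite G] (hC : Constr G)
    (hfree : ¬ Cfsg.Involves (Equiv.Perm (Fin 4)) G)
    (hc : Cfsg.IsCompositionKGroupWith Cfsg.IsSuzukiOrPSL2OddPowerThree G) : Hyp G :=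
  haveI : Fact (Nat.Prime 2) := ⟨Nat.prime_two⟩
  ⟨hC, hfree, secK_of_composition (not_involves_three_of hC hfree) hc⟩

theorem secK_of_sections {G : Type u} [Group G] [Finite G]
    (hfree : ¬ Cfsg.Involves (Equiv.Perm (Fin 4)) G)
    (hsec : ∀ (K R : Subgroup G) [(R.subgroupOf K).Normal],
      Subgroup.centralizer (Cfsg.pCore 2 (K ⧸ R.subgroupOf K) : Set (K ⧸ R.subgroupOf K)) ≤
        Cfsg.pCore 2 (K ⧸ R.subgroupOf K) →
      Cfsg.IsCompositionKGroupWith Cfsg.IsSuzukiOrPSL2OddPowerThree (K ⧸ R.subgroupOf K))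
    (X : Type u) [Group X] [Finite X] (hX : IsSec X G) (hC : Constr X) : SecK X := by
  haveI : Fact (Nat.Prime 2) := ⟨Nat.prime_two⟩
  obtain ⟨K, R, hR, ⟨e⟩⟩ := hX.exists_equiv
  haveI := hR
  have hC' : Constr (K ⧸ R.subgroupOf K) := CF.constrained_equiv e.symm hC
  exact secK_of_surjective (f := e.toMonoidHom) e.surjective
    (hyp_of_composition hC' (fun h => hfree (OffThm.involves_of_isSec (IsSec.of_section K R) h))
      (hsec K R hC')).sec

end Cfsg.Agent.TwoFact
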