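import Cfsg.Agent.TwoFact.FactsDef
import Cfsg.Agent.Suzuki.Sylow
import Cfsg.Agent.Suzuki.LieModel
import Cfsg.Agent.Linear.ClassesPSL
import Cfsg.Agent.Linear.SmallIso
import Cfsg.Agent.Linear.Orders

/-!
In `Sz(q)` and in `PSL₂(3^odd)` some element spreads a given elementary abelian 2-subgroup.
-/

set_option autoImplicit false
set_option linter.unusedSectionVars false
set_option linter.style.haveILetI false

namespace Cfsg.Agent.TwoFact

open Cfsg.Agent.CF (Nz)
open Cfsg.Agent.Fusion (cj mem_cj conj_mem_cj)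
open Matrix
open scoped MatrixGroups

universe u v

/-- The spreading property of a single group. -/
def SpreadAt (Y : Type v) [Group Y] : Prop :=
  ∀ B : Subgroup Y, (∀ b ∈ B, b * b = 1) →
    ∃ x : Y, NonTwo x ∧ ∀ s ∈ B, s ≠ 1 → NonTwo (s * (x⁻¹ * s * x))

theorem spreadAt_of_equiv {X : Type u} [Group X] {Y : Type v} [Group Y] (g : X ≃* Y)
    (h : SpreadAt Y) : SpreadAt X := by
  intro B hB
  obtain ⟨x, hx, hxB⟩ := h (B.map g.toMonoidHom) (by
    rintro _ ⟨b, hb, rfl⟩
    rw [← map_mul, hB b hb, map_one])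
  have key : ∀ y : X, NonTwo (g y) → NonTwo y := fun y hy k hk =>
    hy k (by rw [← map_pow, hk, map_one])
  refine ⟨g.symm x, key _ (by rwa [g.apply_symm_apply]), fun s hs hs1 => key _ ?_⟩
  rw [map_mul, map_mul, map_mul, map_inv, g.apply_symm_apply]
  exact hxB _ ⟨s, hs, rfl⟩ (by simpa using hs1)

theorem isPGroup_dihedral {Y : Type v} [Group Y] {a b : Y} (ha : a * a = 1) (hb : b * b = 1)
    {k : ℕ} (h : (a * b) ^ 2 ^ k = 1) :
    IsPGroup 2 (Subgroup.zpowers (a * b) ⊔ Subgroup.zpowers a : Subgroup Y) := by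
  haveI : Fact (Nat.Prime 2) := ⟨Nat.prime_two⟩
  have hai : a⁻¹ = a := inv_eq_of_mul_eq_one_right ha
  have hn : Subgroup.zpowers a ≤ Subgroup.normalizer (Subgroup.zpowers (a * b) : Set Y) := by
    rw [Subgroup.zpowers_le]
    refine Subgroup.mem_normalizer_iff.2 fun z => ?_
    have hinv : a * (a * b) * a⁻¹ = (a * b)⁻¹ := by
      rw [_root_.mul_inv_rev, inv_eq_of_mul_eq_one_right hb, hai, ← mul_assoc, ha, one_mul]
    have hz : ∀ i : ℤ, a * (a * b) ^ i * a⁻¹ = (a * b) ^ (-i) := fun i => by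
      rw [← conj_zpow, hinv, _root_.inv_zpow, _root_.zpow_neg]
    constructor
    · rintro ⟨i, rfl⟩
      exact ⟨-i, (hz i).symm⟩
    · rintro ⟨i, hi⟩
      refine ⟨-i, ?_⟩
      show (a * b) ^ (-i) = z
      rw [← hz]
      rw [show (a * b) ^ i = a * z * a⁻¹ from hi, hai]
      calc a * (a * z * a) * a = a * a * z * (a * a) := by group
        _ = z := by rw [ha, one_mul, mul_one]
  have h1 : ∀ c : Y, ∀ j, c ^ 2 ^ j = 1 → IsPGroup 2 (Subgroup.zpowers c) := fun c j hj => by
    rintro ⟨_, i, rfl⟩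
    refine ⟨j, Subtype.ext ?_⟩
    show (c ^ i) ^ 2 ^ j = 1
    rw [← zpow_natCast, ← _root_.zpow_mul, mul_comm, _root_.zpow_mul, zpow_natCast, hj, _root_.one_zpow]
  exact IsPGroup.to_sup_of_normal_left' (h1 _ _ h) (h1 a 1 (by rw [pow_one, sq, ha])) hn

/-- Groups with TI Sylow 2-subgroups. -/
theorem spreadAt_of_ti {Y : Type v} [Group Y] [Finite Y] (hsimp : IsSimpleGroup Y)
    (hnc : ¬ IsMulCommutative Y)
    (hTI : ∀ P R : Sylow 2 Y, ∀ s : Y, s ∈ (P : Subgroup Y) → s ∈ (R : Subgroup Y) → s ≠ 1 →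
      P = R) : SpreadAt Y := by
  haveI : Fact (Nat.Prime 2) := ⟨Nat.prime_two⟩
  haveI := hsimp
  have hno : ¬ IsPGroup 2 Y := fun h => hnc (by
    haveI := h.center_nontrivial
    have hc : Subgroup.center Y = ⊤ :=
      (Subgroup.Normal.eq_bot_or_eq_top inferInstance).resolve_left
        ((Subgroup.nontrivial_iff_ne_bot _).1 inferInstance)
    exact ⟨⟨fun a b => (Subgroup.mem_center_iff.1 (hc.ge (Subgroup.mem_top b)) a)⟩⟩)
  intro B hB
  obtain ⟨P, hP⟩ := (show IsPGroup 2 B from fun b => ⟨1, Subtype.ext (by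
    show (b : Y) ^ 2 ^ 1 = 1; rw [pow_one, sq]; exact hB b b.2)⟩).exists_le_sylow
  obtain ⟨x0, hx0⟩ : ∃ x : Y, NonTwo x := by
    by_contra h
    simp only [NonTwo, not_exists, not_forall, not_not] at h
    exact hno h
  rcases eq_or_ne B ⊥ with rfl | hBne
  · exact ⟨x0, hx0, fun s hs h => absurd (Subgroup.mem_bot.1 hs) h⟩
  set K := Subgroup.closure {x : Y | NonTwo x} with hK
  haveI hKn : K.Normal := ⟨fun y hy g => by
    induction hy using Subgroup.closure_induction with
    | mem z hz =>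
      refine Subgroup.subset_closure fun k hk => hz k ?_
      rwa [conj_pow, conj_eq_one_iff] at hk
    | one => rw [mul_one, mul_inv_cancel]; exact K.one_mem
    | mul a b _ _ iha ihb =>
      rw [show g * (a * b) * g⁻¹ = g * a * g⁻¹ * (g * b * g⁻¹) by group]
      exact K.mul_mem iha ihb
    | inv a _ iha =>
      rw [show g * a⁻¹ * g⁻¹ = (g * a * g⁻¹)⁻¹ by group]
      exact K.inv_mem iha⟩
  have hKtop : K = ⊤ := hKn.eq_bot_or_eq_top.resolve_left fun h =>
    hx0 0 (by rw [Subgroup.mem_bot.1 (h.le (Subgroup.subset_closure hx0)), one_pow])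
  obtain ⟨x, hx, hxP⟩ : ∃ x : Y, NonTwo x ∧ x ∉ Nz (P : Subgroup Y) := by
    by_contra h
    push Not at h
    haveI : (P : Subgroup Y).Normal := Subgroup.normalizer_eq_top_iff.1
      (top_le_iff.1 (hKtop.ge.trans ((Subgroup.closure_le _).2 fun z hz => h z hz)))
    rcases Subgroup.Normal.eq_bot_or_eq_top (inferInstance : (P : Subgroup Y).Normal) with e | e
    · exact hBne (eq_bot_iff.2 (hP.trans e.le))
    · exact hno fun y => by
        obtain ⟨k, hk⟩ := P.2 ⟨y, e.ge (Subgroup.mem_top y)⟩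
        exact ⟨k, congrArg Subtype.val hk⟩
  refine ⟨x, hx, fun s hs hs1 k hk => hxP ?_⟩
  set s' := x⁻¹ * s * x with hs'
  have hs2 : s * s = 1 := hB s hs
  have hs2' : s' * s' = 1 := by
    rw [hs', show x⁻¹ * s * x * (x⁻¹ * s * x) = x⁻¹ * (s * s) * x by group, hs2, mul_one,
      inv_mul_cancel]
  obtain ⟨R, hR⟩ := (isPGroup_dihedral hs2 hs2' hk).exists_le_sylow
  have hsR : s ∈ (R : Subgroup Y) :=
    hR ((le_sup_right : Subgroup.zpowers s ≤ _) (Subgroup.mem_zpowers s))
  have hsR' : s' ∈ (R : Subgroup Y) := by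
    have := (R : Subgroup Y).mul_mem ((R : Subgroup Y).inv_mem hsR)
      (hR ((le_sup_left : Subgroup.zpowers (s * s') ≤ _) (Subgroup.mem_zpowers (s * s'))))
    rwa [inv_mul_cancel_left] at this
  obtain rfl := hTI P R s (hP hs) hsR hs1
  have hm : s' ∈ ((x⁻¹ • P : Sylow 2 Y) : Subgroup Y) := by
    rw [Fusion.coe_smul_sylow]
    show s' ∈ cj x⁻¹ (P : Subgroup Y)
    rw [mem_cj, hs', inv_inv, show x * (x⁻¹ * s * x) * x⁻¹ = s by group]
    exact hP hs
  have hne : s' ≠ 1 := fun h => hs1 (by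
    rw [hs'] at h
    calc s = x * (x⁻¹ * s * x) * x⁻¹ := by group
      _ = 1 := by rw [h, mul_one, mul_inv_cancel])
  have he := hTI P (x⁻¹ • P) s' hsR' hm hne
  have he' : cj x⁻¹ (P : Subgroup Y) = P := by
    rw [← Fusion.coe_smul_sylow, ← he]
  exact inv_mem_iff.1 (CF.mem_Nz.2 he')

section Sz

open Suzuki MulAction

variable {F : Type v} [Field F] [Fintype F] {m : ℕ} [SuzukiField F m]

theorem spreadAt_sz [Finite (Cfsg.Sz F m)] (hsimp : IsSimpleGroup (Cfsg.Sz F m))
    (hnc : ¬ IsMulCommutative (Cfsg.Sz F m)) : SpreadAt (Cfsg.Sz F m) := by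
  haveI : Fact (Nat.Prime 2) := ⟨Nat.prime_two⟩
  refine spreadAt_of_ti hsimp hnc fun P R s hsP hsR hs1 => ?_
  obtain ⟨g, rfl⟩ := MulAction.exists_smul_eq (Cfsg.Sz F m) (unipSylow F m) P
  obtain ⟨h, rfl⟩ := MulAction.exists_smul_eq (Cfsg.Sz F m) (unipSylow F m) R
  rw [Fusion.coe_smul_sylow, coe_unipSylow] at hsP hsR
  obtain ⟨a, ha, hga⟩ := hsP
  obtain ⟨b, hb, hhb⟩ := hsR
  simp only [MulEquiv.coe_toMonoidHom, MulAut.conj_apply] at hga hhb
  have hfix : ∀ c ∈ unip F m, c ≠ 1 → ∀ k : Cfsg.Sz F m, k * c * k⁻¹ ∈ unip F m →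
      k ∈ Subgroup.normalizer (unip F m : Set (Cfsg.Sz F m)) := by
    intro c hc hc1 k hk
    rw [normalizer_unip, MulAction.mem_stabilizer_iff]
    obtain ⟨a₁, b₁, he⟩ := hk
    obtain ⟨a₂, b₂, hc'⟩ := hc
    have hne : a₁ ≠ 0 ∨ b₁ ≠ 0 := by
      by_contra h'
      simp only [not_or, not_not] at h'
      rw [h'.1, h'.2, gT_zero, conj_eq_one_iff] at he
      exact hc1 he
    refine fix_of_unip hne ?_
    rw [← he, mul_smul, mul_smul, inv_smul_smul]
    congr 1
    rw [hc']
    exact gT_smul_oInf _ _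
  have hk : h⁻¹ * g ∈ Subgroup.normalizer (unip F m : Set (Cfsg.Sz F m)) := by
    refine hfix a ha (fun e => hs1 (by rw [← hga, e, mul_one, mul_inv_cancel])) _ ?_
    have e : h⁻¹ * g * a * (h⁻¹ * g)⁻¹ = h⁻¹ * (g * a * g⁻¹) * h := by group
    rw [e, hga, ← hhb, show h⁻¹ * (h * b * h⁻¹) * h = b by group]
    exact hb
  replace hk : (h⁻¹ * g) • unipSylow F m = unipSylow F m :=
    Sylow.smul_eq_iff_mem_normalizer.2 hk
  calc g • unipSylow F m = h • ((h⁻¹ * g) • unipSylow F m) := by rw [smul_smul, mul_inv_cancel_left]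
    _ = _ := by rw [hk]

end Sz

section PSL

open Linear.Classes

variable {F : Type v} [Field F] [Fintype F] {n : ℕ}

theorem not_eight_dvd (hF : Fintype.card F = 3 ^ (2 * n + 1)) :
    ¬ 2 ^ 3 ∣ Nat.card (ProjectiveSpecialLinearGroup (Fin 2) F) := by
  intro h8
  have hodd : Odd (Fintype.card F) := hF ▸ Odd.pow (by decide)
  have hcard := Linear.card_PSL_two_mul (F := F)
  rw [Linear.gcd_two_of_odd hodd] at hcard
  obtain ⟨c, hc⟩ : ∃ c, Fintype.card F = 8 * c + 3 := ⟨Fintype.card F / 8, by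
    have : Fintype.card F % 8 = 3 := by
      rw [hF, pow_succ, pow_mul, Nat.mul_mod, Nat.pow_mod]; norm_num
    omega⟩
  have h16 := mul_dvd_mul_left 2 h8
  rw [hcard, hc, show (8 * c + 3) * (8 * c + 3 - 1) * (8 * c + 3 + 1) =
    8 * ((8 * c + 3) * (4 * c + 1) * (2 * c + 1)) by rw [Nat.add_sub_assoc (by norm_num)]; ring,
    show 2 * 2 ^ 3 = 8 * 2 from rfl] at h16
  have h2 := Nat.dvd_of_mul_dvd_mul_left (by norm_num) h16
  rcases (Nat.prime_two.dvd_mul.1 h2) with h' | h'
  · rcases (Nat.prime_two.dvd_mul.1 h') with h'' | h'' <;> omega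
  · omega

theorem trace_zero_or_scalar {g : SL(2, F)} (h : proj g * proj g = 1) :
    (g : Matrix (Fin 2) (Fin 2) F).trace = 0 ∨ ¬ Nonscalar (g : Matrix (Fin 2) (Fin 2) F) := by
  by_contra hcon
  push Not at hcon
  obtain ⟨ht, hn⟩ := hcon
  rw [← map_mul, proj_eq_one_iff] at h
  obtain ⟨c, -, hc⟩ := scalar_SL h
  rw [Matrix.SpecialLinearGroup.coe_mul, cayley_hamilton] at hc
  refine hn ((g : Matrix (Fin 2) (Fin 2) F).trace⁻¹ * (c + 1)) ?_
  rw [mul_smul, add_smul, one_smul, ← hc, sub_add_cancel, smul_smul, inv_mul_cancel₀ ht, one_smul]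

/-- In `PSL₂(3^odd)` every element of 2-power order squares to one. -/
theorem sq_eq_one_psl (hF : Fintype.card F = 3 ^ (2 * n + 1))
    {z : ProjectiveSpecialLinearGroup (Fin 2) F} {k : ℕ} (hz : z ^ 2 ^ k = 1) : z * z = 1 := by
  have hodd : Odd (Fintype.card F) := hF ▸ Odd.pow (by decide)
  have hq : Fintype.card F % 8 = 3 := by
    rw [hF, pow_succ, pow_mul, Nat.mul_mod, Nat.pow_mod]; norm_num
  have hneg : ¬ IsSquare (-1 : F) := by rw [FiniteField.isSquare_neg_one_iff]; omega
  haveI : CharP F 3 := by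
    haveI : Fact (Nat.Prime 3) := ⟨Nat.prime_three⟩
    exact charP_of_card_eq_prime_pow hF
  obtain ⟨j, -, hj⟩ := (Nat.dvd_prime_pow Nat.prime_two).1 (orderOf_dvd_of_pow_eq_one hz)
  have hj2 : j ≤ 2 := by
    by_contra h
    exact not_eight_dvd hF ((pow_dvd_pow 2 (show 3 ≤ j by omega)).trans
      (hj ▸ orderOf_dvd_natCard z))
  have hz4 : z ^ 4 = 1 := by
    refine orderOf_dvd_iff_pow_eq_one.1 ?_
    rw [hj]
    exact (pow_dvd_pow 2 hj2).trans (by norm_num)
  obtain ⟨g, rfl⟩ := proj_surjective z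
  rw [← map_mul, proj_eq_one_iff]
  rcases trace_zero_or_scalar (g := g * g) (by rw [map_mul, ← hz4, pow_succ, pow_succ, pow_two]; group) with ht | hn
  · rw [Matrix.SpecialLinearGroup.coe_mul, cayley_hamilton, Matrix.trace_sub, Matrix.trace_smul,
      Matrix.trace_one, Fintype.card_fin, smul_eq_mul, Nat.cast_ofNat] at ht
    have h3 : (3 : F) = 0 := by simpa using CharP.cast_eq_zero F 3
    exact absurd ⟨(g : Matrix (Fin 2) (Fin 2) F).trace, by linear_combination -ht - h3⟩ hneg
  · exact hn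

theorem spreadAt_psl (hF : Fintype.card F = 3 ^ (2 * n + 1))
    (hsimp : IsSimpleGroup (ProjectiveSpecialLinearGroup (Fin 2) F)) :
    SpreadAt (ProjectiveSpecialLinearGroup (Fin 2) F) := by
  classical
  intro B hB
  haveI := hsimp
  haveI : Fact (Nat.Prime 3) := ⟨Nat.prime_three⟩
  haveI : CharP F 3 := charP_of_card_eq_prime_pow hF
  have h3 : (3 : F) = 0 := by simpa using CharP.cast_eq_zero F 3
  have hodd : Odd (Fintype.card F) := hF ▸ Odd.pow (by decide)
  have hn : 1 ≤ n := by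
    by_contra hn
    obtain ⟨i⟩ := Linear.psl_two_three_iso (F := F) (by rw [hF, show n = 0 by omega]; rfl)
    haveI : Nontrivial (alternatingGroup (Fin 4)) := i.symm.toEquiv.nontrivial
    haveI : IsSimpleGroup (alternatingGroup (Fin 4)) :=
      IsSimpleGroup.isSimpleGroup_of_surjective i.toMonoidHom i.surjective
    haveI := alternatingGroup.characteristic_kleinFour (α := Fin 4) (by simp)
    haveI := Subgroup.normal_of_characteristic (alternatingGroup.kleinFour (Fin 4))
    have hk := alternatingGroup.kleinFour_card_of_card_eq_four (α := Fin 4) (by simp)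
    rcases Subgroup.Normal.eq_bot_or_eq_top
      (inferInstance : (alternatingGroup.kleinFour (Fin 4)).Normal) with h | h <;> rw [h] at hk
    · rw [Subgroup.card_bot] at hk; omega
    · rw [Subgroup.card_top, nat_card_alternatingGroup, Nat.card_fin] at hk
      norm_num [Nat.factorial] at hk
  have hq27 : 27 ≤ Fintype.card F := by
    rw [hF]
    exact le_trans (by norm_num) (Nat.pow_le_pow_right (by norm_num) (show 3 ≤ 2 * n + 1 by omega))
  have hneg : ¬ IsSquare (-1 : F) := by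
    rw [FiniteField.isSquare_neg_one_iff, hF, pow_succ, pow_mul, Nat.mul_mod, Nat.pow_mod]
    norm_num
  -- `B` has at most four elements
  haveI : Fact (Nat.Prime 2) := ⟨Nat.prime_two⟩
  obtain ⟨e, he⟩ := IsPGroup.iff_card.1 (show IsPGroup 2 B from fun b => ⟨1, Subtype.ext (by
    show (b : ProjectiveSpecialLinearGroup (Fin 2) F) ^ 2 ^ 1 = 1
    rw [pow_one, sq]; exact hB b b.2)⟩)
  have hB4 : Nat.card B ≤ 4 := by
    rw [he]
    refine le_trans (Nat.pow_le_pow_right two_pos (show e ≤ 2 from ?_)) (by norm_num)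
    by_contra h
    exact not_eight_dvd hF ((pow_dvd_pow 2 (show 3 ≤ e by omega)).trans
      (he ▸ Subgroup.card_subgroup_dvd_card B))
  -- lifts of the non-trivial elements
  have hlift : ∀ s : B, ∃ g : SL(2, F), proj g = s ∧
      ((s : ProjectiveSpecialLinearGroup (Fin 2) F) ≠ 1 →
        (g : Matrix (Fin 2) (Fin 2) F).trace = 0) := fun s => by
    obtain ⟨g, hg⟩ := proj_surjective (s : ProjectiveSpecialLinearGroup (Fin 2) F)
    refine ⟨g, hg, fun hs => (trace_zero_or_scalar (by rw [hg]; exact hB s s.2)).resolve_right ?_⟩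
    exact fun h => hs (by rw [← hg]; exact proj_eq_one_iff.2 h)
  choose gs hgs hgt using hlift
  haveI : Fintype B := Fintype.ofFinite B
  let E : Finset B := Finset.univ.filter fun s => (s : ProjectiveSpecialLinearGroup (Fin 2) F) ≠ 1
  have hE : E.card ≤ 4 := (Finset.card_le_univ _).trans (Nat.card_eq_fintype_card (α := B) ▸ hB4)
  -- the direction of the unipotent element
  let P : B → Polynomial F := fun s =>
    Polynomial.C ((gs s : Matrix (Fin 2) (Fin 2) F) 0 1) * Polynomial.X ^ 2 +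
      Polynomial.C (2 * (gs s : Matrix (Fin 2) (Fin 2) F) 0 0) * Polynomial.X -
      Polynomial.C ((gs s : Matrix (Fin 2) (Fin 2) F) 1 0)
  have hP0 : ∀ s ∈ E, P s ≠ 0 := fun s hs h0 => by
    have ht := hgt s (Finset.mem_filter.1 hs).2
    rw [Matrix.trace_fin_two] at ht
    have e0 := congrArg (fun p : Polynomial F => p.coeff 0) h0
    have e1 := congrArg (fun p : Polynomial F => p.coeff 1) h0
    simp [P, Polynomial.coeff_X_pow] at e0 e1
    have h00 : (gs s : Matrix (Fin 2) (Fin 2) F) 0 0 = 0 := by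
      rcases e1 with h | h
      · exact absurd (by linear_combination h3 - h : (1 : F) = 0) one_ne_zero
      · exact h
    have hd := (gs s).det_coe
    rw [Matrix.det_fin_two] at hd
    rw [h00, e0] at hd
    simp at hd
  obtain ⟨b, hb⟩ : ∃ b : F, ∀ s ∈ E, (P s).eval b ≠ 0 := by
    by_contra h
    push Not at h
    have hsub : (Finset.univ : Finset F) ⊆ E.biUnion fun s => (P s).roots.toFinset := fun b _ => by
      obtain ⟨s, hs, h0⟩ := h b
      exact Finset.mem_biUnion.2 ⟨s, hs, Multiset.mem_toFinset.2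
        ((Polynomial.mem_roots (hP0 s hs)).2 h0)⟩
    have hdeg : ∀ s ∈ E, (P s).roots.toFinset.card ≤ 2 := fun s hs =>
      ((Multiset.toFinset_card_le _).trans (Polynomial.card_roots' _)).trans (by
        simp only [P]; compute_degree)
    have := (Finset.card_le_card hsub).trans (Finset.card_biUnion_le_card_mul _ _ 2 hdeg)
    rw [Finset.card_univ] at this
    omega
  -- its length
  obtain ⟨t, ht0, ht1⟩ : ∃ t : F, t ≠ 0 ∧ ∀ s ∈ E, (t * (P s).eval b) ^ 2 ≠ 1 := by
    by_contra h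
    push Not at h
    have hsub : (Finset.univ : Finset F) ⊆ insert 0 (E.biUnion fun s =>
        {((P s).eval b)⁻¹, -((P s).eval b)⁻¹}) := fun t _ => by
      rcases eq_or_ne t 0 with rfl | ht
      · exact Finset.mem_insert_self _ _
      obtain ⟨s, hs, h1⟩ := h t ht
      refine Finset.mem_insert_of_mem (Finset.mem_biUnion.2 ⟨s, hs, ?_⟩)
      rw [Finset.mem_insert, Finset.mem_singleton]
      rcases sq_eq_one_iff.1 h1 with e | e
      · exact Or.inl (eq_inv_of_mul_eq_one_left e)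
      · exact Or.inr (by
          rw [← neg_eq_iff_eq_neg]
          exact eq_inv_of_mul_eq_one_left (by rw [neg_mul, e, neg_neg]))
    have := (Finset.card_le_card hsub).trans ((Finset.card_insert_le _ _).trans
      (Nat.add_le_add_right (Finset.card_biUnion_le_card_mul _ _ 2 fun s _ => Finset.card_le_two) 1))
    rw [Finset.card_univ] at this
    omega
  let N : Matrix (Fin 2) (Fin 2) F := !![b, -1; b ^ 2, -b]
  let x : SL(2, F) := ⟨!![1 + t * b, -t; t * b ^ 2, 1 - t * b], by
    rw [Matrix.det_fin_two_of]; ring⟩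
  refine ⟨proj x, fun k hk => ?_, fun s hs hs1 k hk => ?_⟩
  · have h1 := sq_eq_one_psl hF hk
    rcases trace_zero_or_scalar h1 with h | h
    · rw [Matrix.trace_fin_two] at h
      simp [x] at h
      exact absurd (by linear_combination h3 - h : (1 : F) = 0) one_ne_zero
    · obtain ⟨c, -, hc⟩ := scalar_SL h
      have := congrFun (congrFun hc 0) 1
      simp [x] at this
      exact ht0 this
  · set s₀ : B := ⟨s, hs⟩
    have hsE : s₀ ∈ E := Finset.mem_filter.2 ⟨Finset.mem_univ _, hs1⟩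
    have h1 := sq_eq_one_psl hF hk
    set g := gs s₀ with hg
    have hg1 : proj g = s := hgs s₀
    rw [show s * ((proj x)⁻¹ * s * proj x) = proj (g * (x⁻¹ * g * x)) by
      rw [map_mul, map_mul, map_mul, map_inv, hg1]] at h1
    have htr : (g : Matrix (Fin 2) (Fin 2) F) 1 1 = -(g : Matrix (Fin 2) (Fin 2) F) 0 0 := by
      have := hgt s₀ hs1
      rw [Matrix.trace_fin_two] at this
      linear_combination this
    have hd := g.det_coe
    rw [Matrix.det_fin_two, htr] at hd
    set c := (P s₀).eval b with hc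
    have hc' : c = (g : Matrix (Fin 2) (Fin 2) F) 0 1 * b ^ 2 +
        2 * (g : Matrix (Fin 2) (Fin 2) F) 0 0 * b - (g : Matrix (Fin 2) (Fin 2) F) 1 0 := by
      simp [hc, P, hg]
    have key : ((g * (x⁻¹ * g * x) : SL(2, F)) : Matrix (Fin 2) (Fin 2) F).trace =
        1 - (t * c) ^ 2 := by
      simp only [Matrix.SpecialLinearGroup.coe_mul, Matrix.SpecialLinearGroup.coe_inv]
      rw [show (x : Matrix (Fin 2) (Fin 2) F) = !![1 + t * b, -t; t * b ^ 2, 1 - t * b] from rfl,
        Matrix.adjugate_fin_two_of]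
      simp only [Matrix.trace_fin_two, Matrix.mul_apply, Fin.sum_univ_two, Matrix.cons_val_zero,
        Matrix.cons_val_one, Matrix.cons_val', Matrix.of_apply, Matrix.cons_val_fin_one]
      rw [hc', htr]
      linear_combination (-2 : F) * hd - h3
    have hu : (t * c) ^ 2 ≠ 0 := pow_ne_zero 2 (mul_ne_zero ht0 (hb s₀ hsE))
    rcases trace_zero_or_scalar h1 with h | h
    · rw [key] at h
      exact ht1 s₀ hsE (by linear_combination -h)
    · obtain ⟨d, hd2, hdm⟩ := scalar_SL h
      rw [hdm, Matrix.trace_smul, Matrix.trace_one, Fintype.card_fin, smul_eq_mul,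
        Nat.cast_ofNat] at key
      have hd2' : d * d = 1 := by
        have := (g * (x⁻¹ * g * x)).det_coe
        rw [hdm, Matrix.det_smul, Matrix.det_one, mul_one, Fintype.card_fin, sq] at this
        exact this
      rcases mul_self_eq_one_iff.1 hd2' with e | e
      · exact hneg ⟨t * c, by linear_combination -key + 2 * e⟩
      · exact hu (by linear_combination key - 2 * e + h3)

end PSL

/-- The spreading fact. -/
theorem spreadFact : SpreadFact.{u} := by
  intro T _ _ hsimp hnc hK _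
  haveI := hsimp
  rcases hK with ⟨F, i1, i2, m, hm, hF, ⟨f⟩⟩ | ⟨F, i1, i2, n, hF, ⟨f⟩⟩
  · haveI : Suzuki.SuzukiField F m := ⟨hm, hF⟩
    let g : T ≃* Cfsg.Sz F m := f.trans (Suzuki.szEquivLie F m).symm
    haveI : Finite (Cfsg.Sz F m) := Finite.of_equiv T g.toEquiv
    haveI : Nontrivial (Cfsg.Sz F m) := g.symm.toEquiv.nontrivial
    refine spreadAt_of_equiv g (spreadAt_sz
      (IsSimpleGroup.isSimpleGroup_of_surjective g.toMonoidHom g.surjective)
      fun h => hnc ⟨⟨fun x y => g.injective (by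
        rw [map_mul, map_mul]; exact h.is_comm.comm _ _)⟩⟩)
  · haveI : Nontrivial (ProjectiveSpecialLinearGroup (Fin 2) F) := f.symm.toEquiv.nontrivial
    exact spreadAt_of_equiv f (spreadAt_psl hF
      (IsSimpleGroup.isSimpleGroup_of_surjective f.toMonoidHom f.surjective))

end Cfsg.Agent.TwoFact
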