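import Cfsg.Agent.TwoFact.EGrp
import Cfsg.Agent.OffThm.Factor
import Cfsg.Agent.EvenLocal.InvolvedS4
import Cfsg.Agent.LocalP.QdStable

/-!
Groups with `C(O₂) ≤ O₂`, without section `S₄`, whose simple sections are Suzuki groups or
`PSL₂(3^odd)`: a normal subgroup inside `C(Z(S))` containing `Ĵ(S)`.
-/

set_option autoImplicit false
set_option linter.unusedSectionVars false
set_option linter.style.haveILetI false

open scoped IsMulCommutative

namespace Cfsg.Agent.TwoFact

open Cfsg.Agent.CF (IsSyl Nz omZ actHom fixSub)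
open Cfsg.Agent.Fusion (cj cj_eq_of_mem)
open Cfsg.Agent.FusionAux.MinParabolic (Constr zOf centralizer_omZ_le elemAb_sq)
open Cfsg.Agent.FusionAux.NoOffender (delta)

universe u

/-- The simple sections are Suzuki groups or `PSL₂(3^odd)`. -/
def SecK (X : Type u) [Group X] : Prop :=
  ∀ (H : Subgroup X) (N : Subgroup H) [N.Normal], IsSimpleGroup (H ⧸ N) →
    ¬ IsMulCommutative (H ⧸ N) → Cfsg.IsSuzukiOrPSL2OddPowerThree (H ⧸ N)

/-- The subgroup generated by the commutators of a module with a subgroup. -/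
def commSub {X : Type u} [Group X] {M : Type u} [CommGroup M] (φ : X →* MulAut M)
    (A : Subgroup X) : Subgroup M :=
  Subgroup.closure {d | ∃ a ∈ A, ∃ m, delta φ a m = d}

/-- The squared offender bound for groups without section `S₃`. -/
def TwoBound : Prop :=
  ∀ {X : Type u} [Group X] [Finite X] {M : Type u} [CommGroup M] [Finite M] (φ : X →* MulAut M),
    Function.Injective φ → (∀ m : M, m * m = 1) → Cfsg.pCore 2 X = ⊥ →
    ¬ Cfsg.Involves (Equiv.Perm (Fin 3)) X → SecK X →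
    ∀ A : Subgroup X, (∀ a ∈ A, a * a = 1) →
      Nat.card A ^ 2 * Nat.card (fixSub φ A) ≤ Nat.card M ∧
        Nat.card A ^ 2 ≤ Nat.card (commSub φ A)

/-- The class of groups of the factorisation theorem. -/
structure Hyp (G : Type u) [Group G] : Prop where
  constr : Constr G
  free : ¬ Cfsg.Involves (Equiv.Perm (Fin 4)) G
  sec : SecK G

theorem secK_of_injective {X Y : Type u} [Group X] [Group Y] {f : Y →* X}
    (hf : Function.Injective f) (h : SecK X) : SecK Y := by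
  intro H N _ hsimp hnc
  let e : H ≃* H.map f := H.equivMapOfInjective f hf
  let π : H.map f →* H ⧸ N := (QuotientGroup.mk' N).comp e.symm.toMonoidHom
  have hπ : Function.Surjective π :=
    (QuotientGroup.mk'_surjective N).comp e.symm.surjective
  let q : (H.map f ⧸ π.ker) ≃* H ⧸ N := QuotientGroup.quotientKerEquivOfSurjective π hπ
  have h1 : IsSimpleGroup (H.map f ⧸ π.ker) := by
    haveI : Nontrivial (H.map f ⧸ π.ker) := q.symm.injective.nontrivial
    exact IsSimpleGroup.isSimpleGroup_of_surjective q.symm.toMonoidHom q.symm.surjective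
  have h2 : ¬ IsMulCommutative (H.map f ⧸ π.ker) := fun hc => hnc ⟨⟨fun a b => by
    apply q.symm.injective
    rw [map_mul, map_mul, hc.is_comm.comm]⟩⟩
  rcases h (H.map f) π.ker h1 h2 with hs | ⟨F, _, _, n, hF, ⟨e'⟩⟩
  · left
    obtain ⟨F, hF1, hF2, m, hm, hc, ⟨e'⟩⟩ := hs
    exact ⟨F, hF1, hF2, m, hm, hc, ⟨q.symm.trans e'⟩⟩
  · exact .inr ⟨F, inferInstance, inferInstance, n, hF, ⟨q.symm.trans e'⟩⟩

theorem secK_of_surjective {X Y : Type u} [Group X] [Group Y] {f : X →* Y}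
    (hf : Function.Surjective f) (h : SecK X) : SecK Y := by
  intro H N _ hsimp hnc
  let π : H.comap f →* H ⧸ N := (QuotientGroup.mk' N).comp (f.subgroupComap H)
  have hπ : Function.Surjective π :=
    (QuotientGroup.mk'_surjective N).comp (f.subgroupComap_surjective_of_surjective H hf)
  let q : (H.comap f ⧸ π.ker) ≃* H ⧸ N := QuotientGroup.quotientKerEquivOfSurjective π hπ
  have h1 : IsSimpleGroup (H.comap f ⧸ π.ker) := by
    haveI : Nontrivial (H.comap f ⧸ π.ker) := q.symm.injective.nontrivial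
    exact IsSimpleGroup.isSimpleGroup_of_surjective q.symm.toMonoidHom q.symm.surjective
  have h2 : ¬ IsMulCommutative (H.comap f ⧸ π.ker) := fun hc => hnc ⟨⟨fun a b => by
    apply q.symm.injective
    rw [map_mul, map_mul, hc.is_comm.comm]⟩⟩
  rcases h (H.comap f) π.ker h1 h2 with hs | ⟨F, _, _, n, hF, ⟨e'⟩⟩
  · left
    obtain ⟨F, hF1, hF2, m, hm, hc, ⟨e'⟩⟩ := hs
    exact ⟨F, hF1, hF2, m, hm, hc, ⟨q.symm.trans e'⟩⟩
  · exact .inr ⟨F, inferInstance, inferInstance, n, hF, ⟨q.symm.trans e'⟩⟩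

variable {G : Type u} [Group G] [Finite G]

theorem not_involves_three_of [Fact (Nat.Prime 2)] (hconstr : Constr G)
    (hfree : ¬ Cfsg.Involves (Equiv.Perm (Fin 4)) G) :
    ¬ Cfsg.Involves (Equiv.Perm (Fin 3)) G := by
  intro h
  obtain ⟨A, f, hf⟩ := EvenLocal.exists_surjective_of_involves h
  set Q := Cfsg.pCore 2 G
  haveI hQn : Q.Normal := Cores.pCore_normal_inst (p := 2) G
  have hN : Subgroup.normalizer (Q : Set G) = ⊤ := Subgroup.normalizer_eq_top_iff.2 hQn
  set N := Subgroup.normalizer (Q : Set G)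
  set Z := (Subgroup.centralizer (Q : Set G)).subgroupOf N
  let π : A →* N ⧸ Z := (QuotientGroup.mk' Z).comp
    ((A.subtype).codRestrict N fun a => hN.ge (Subgroup.mem_top _))
  have hπ : π.ker ≤ f.ker := by
    have h1 : IsPGroup 2 π.ker := by
      have : π.ker ≤ (Q.subgroupOf A) := fun a ha =>
        hconstr (Subgroup.mem_subgroupOf.1
          ((QuotientGroup.eq_one_iff (N := Z) _).1 (MonoidHom.mem_ker.1 ha)))
      exact IsPGroup.to_le (Cores.pCore_isPGroup.comap_subtype) this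
    have h2 : π.ker.map f ≤ Cfsg.pCore 2 (Equiv.Perm (Fin 3)) :=
      Cores.le_pCore (Subgroup.Normal.map inferInstance f hf) (h1.map f)
    have h3 : Cfsg.pCore 2 (Equiv.Perm (Fin 3)) = ⊥ := by
      refine eq_bot_iff.2 fun x hx => ?_
      have hn : (Cfsg.pCore 2 (Equiv.Perm (Fin 3))).Normal :=
        Cores.pCore_normal_inst (p := 2) _
      have hc := hn.conj_mem x hx
      have h2' : ∀ y ∈ Cfsg.pCore 2 (Equiv.Perm (Fin 3)), y ^ 3 = 1 → y = 1 := fun y hy hy3 => by
        obtain ⟨k, hk⟩ := Cores.pCore_isPGroup ⟨y, hy⟩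
        have hk' : y ^ 2 ^ k = 1 := congrArg Subtype.val hk
        have := pow_gcd_eq_one.2 ⟨hk', hy3⟩
        rwa [Nat.Coprime.pow_left k (by norm_num : Nat.Coprime 2 3), pow_one] at this
      have key : ∀ x : Equiv.Perm (Fin 3), x ≠ 1 → x ^ 3 ≠ 1 →
          ∃ c : Equiv.Perm (Fin 3), x * (c * x * c⁻¹) ≠ 1 ∧ (x * (c * x * c⁻¹)) ^ 3 = 1 := by
        decide +kernel
      refine Subgroup.mem_bot.2 ?_
      by_contra hx1
      obtain ⟨c, hc1, hc3⟩ := key x hx1 fun h3 => hx1 (h2' x hx h3)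
      exact hc1 (h2' _ (mul_mem hx (hc c)) hc3)
    intro a ha
    exact MonoidHom.mem_ker.2 (Subgroup.mem_bot.1 (h3.le (h2 ⟨a, ha, rfl⟩)))
  refine hfree (EvenLocal.involves_perm_four_iff.2 ⟨Q, Cores.pCore_isPGroup, ?_⟩)
  let g : π.range →* Equiv.Perm (Fin 3) :=
    (QuotientGroup.lift π.ker f hπ).comp (QuotientGroup.quotientKerEquivRange π).symm.toMonoidHom
  refine EvenLocal.involves_of_surjective g fun y => ?_
  obtain ⟨a, rfl⟩ := hf y
  refine ⟨QuotientGroup.quotientKerEquivRange π (a : A ⧸ π.ker), ?_⟩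
  show QuotientGroup.lift π.ker f hπ
    ((QuotientGroup.quotientKerEquivRange π).symm _) = f a
  rw [MulEquiv.symm_apply_apply]
  rfl

theorem not_involves_three_of_hyp [Fact (Nat.Prime 2)] (hG : Hyp G) :
    ¬ Cfsg.Involves (Equiv.Perm (Fin 3)) G :=
  not_involves_three_of hG.constr hG.free

/-- A normal elementary subgroup commutes with the maximal elementary subgroups, once it does so
with one of them, only if it lies in all of them. -/
theorem le_of_maxElem {V S A : Subgroup G} (hV : Cfsg.IsElementaryAbelian 2 V) (hVS : V ≤ S)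
    (hA : A ∈ Modules.maxElemAbIn 2 S) (hAC : A ≤ Subgroup.centralizer (V : Set G)) : V ≤ A := by
  have hAV : A ⊓ Subgroup.centralizer (V : Set G) = A := inf_eq_left.2 hAC
  haveI := hV.1
  have h1 : Cfsg.IsElementaryAbelian 2 (A ⊔ V) :=
    Modules.elemAb_sup hA.2.1 hV (Subgroup.le_centralizer_iff.1 hAC)
  have h2 := hA.2.2 _ (sup_le hA.1 hVS) h1
  exact le_sup_right.trans (Subgroup.eq_of_le_of_card_ge (le_sup_left : A ≤ A ⊔ V) h2).ge

/-- A normal subgroup inside `C(Z(S))` containing `Ĵ(S)`. -/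
theorem exists_core [Fact (Nat.Prime 2)] (hB : TwoBound.{u}) (hG : Hyp G) (S : Sylow 2 G) :
    ∃ C : Subgroup G, C.Normal ∧
      C ≤ Subgroup.centralizer (zOf (S : Subgroup G) : Set G) ∧
      Cfsg.thompsonSubgroupOf 2 (S : Subgroup G) ≤ C ∧ jH (S : Subgroup G) ≤ C := by
  set Q := Cfsg.pCore 2 G with hQ
  have hQS : Q ≤ (S : Subgroup G) := Cores.pCore_le_sylow S
  have : (omZ 2 Q).Normal := CF.omZ_normal Q
  set V := Subgroup.normalClosure (omZ 2 (S : Subgroup G) : Set G) with hV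
  have hVn : V.Normal := Subgroup.normalClosure_normal
  have hVQ : V ≤ omZ 2 Q := by
    refine Subgroup.normalClosure_le_normal ((Subgroup.closure_le _).2 fun z hz => ?_)
    exact Subgroup.subset_closure ⟨⟨hG.constr (Subgroup.centralizer_le hQS hz.1.2),
      Subgroup.centralizer_le hQS hz.1.2⟩, hz.2⟩
  have : IsMulCommutative V := ⟨⟨fun a b => Subtype.ext
    (Subgroup.mem_centralizer_iff.1 ((CF.omZ_le_inf 2 Q) (hVQ b.2)).2 a
      (CF.omZ_le 2 Q (hVQ a.2)))⟩⟩
  have hV2 : ∀ v ∈ V, v ^ 2 = 1 := fun v hv => CF.pow_eq_one_of_mem_omZ v (hVQ hv)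
  have hVS : V ≤ (S : Subgroup G) := hVQ.trans ((CF.omZ_le 2 Q).trans hQS)
  set C := Subgroup.centralizer (V : Set G) with hCdef
  have hCn : C.Normal := by rw [hCdef]; infer_instance
  have hCz : C ≤ Subgroup.centralizer (zOf (S : Subgroup G) : Set G) :=
    (Subgroup.centralizer_le Subgroup.le_normalClosure).trans (centralizer_omZ_le hG.constr S)
  set π := QuotientGroup.mk' C with hπ
  have hπs : Function.Surjective π := QuotientGroup.mk'_surjective C
  have hO : Cfsg.pCore 2 (G ⧸ C) = ⊥ := by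
    refine eq_bot_iff.2 fun q hq => Subgroup.mem_bot.2 ?_
    obtain ⟨g, rfl⟩ := hπs q
    refine (QuotientGroup.eq_one_iff g).2 (Subgroup.mem_centralizer_iff.2 fun v hv => ?_)
    have : Cfsg.pCore 2 (G ⧸ C) ≤ (S.mapSurjective hπs : Subgroup (G ⧸ C)) :=
      Cores.pCore_le_sylow _
    have hle : V ≤ Subgroup.centralizer ({g} : Set G) := by
      rw [hV]
      refine (Subgroup.closure_le _).2 fun w hw => ?_
      obtain ⟨z, hz, hc⟩ := Group.mem_conjugatesOfSet_iff.1 hw
      obtain ⟨k, rfl⟩ := isConj_iff.1 hc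
      rw [SetLike.mem_coe, Subgroup.mem_centralizer_singleton_iff]
      have h1 : π (k⁻¹ * g * k) ∈ Cfsg.pCore 2 (G ⧸ C) := by
        simpa using (Cores.pCore_normal_inst (p := 2) (G ⧸ C)).conj_mem _ hq (π k)⁻¹
      obtain ⟨s, hs, he⟩ := (this h1 : π (k⁻¹ * g * k) ∈ (S : Subgroup G).map π)
      have h2 : s⁻¹ * (k⁻¹ * g * k) ∈ C := QuotientGroup.eq.1 he
      have h3 : Commute z (s⁻¹ * (k⁻¹ * g * k)) :=
        Subgroup.mem_centralizer_iff.1 h2 z (Subgroup.subset_normalClosure hz)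
      have h4 : Commute z s :=
        (Subgroup.mem_centralizer_iff.1 ((CF.omZ_le_inf 2 _) hz).2 s hs).symm
      have h5 : Commute z (k⁻¹ * g * k) := by simpa using h4.mul_right h3
      symm
      calc g * (k * z * k⁻¹) = k * ((k⁻¹ * g * k) * z) * k⁻¹ := by group
        _ = k * (z * (k⁻¹ * g * k)) * k⁻¹ := by rw [h5.eq]
        _ = k * z * k⁻¹ * g := by group
    exact Subgroup.mem_centralizer_singleton_iff.1 (hle hv)
  have hS3 : ¬ Cfsg.Involves (Equiv.Perm (Fin 3)) (G ⧸ C) := CF.not_involves_three V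
    (IsPGroup.to_le S.2 hVS) hG.free
  have hV' : ∀ v : V, v * v = 1 := fun v => Subtype.ext (by
    show (v : G) * v = 1; rw [← sq]; exact hV2 v v.2)
  have hJC : ∀ A ∈ Modules.maxElemAbIn 2 (S : Subgroup G), A ≤ C := by
    rintro A ⟨hAS, hA, hmax⟩
    by_contra hAC
    refine OffThm.not_isOff_of_core_eq_bot (φ := actHom V) (CF.actHom_injective V) hV' hO hS3
      (A.map π) ⟨?_, ?_, ?_⟩
    · rw [Ne, Subgroup.map_eq_bot_iff, QuotientGroup.ker_mk']
      exact hAC
    · rintro _ ⟨a, ha, rfl⟩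
      rw [← map_mul, elemAb_sq hA a ha, map_one]
    · exact CF.card_le_of_max V hA (hmax _ (sup_le (inf_le_left.trans hAS) hVS)
        (CF.elemAb_competitor V hV2 hA))
  have hJ : Cfsg.thompsonSubgroupOf 2 (S : Subgroup G) ≤ C := by
    rw [Modules.thompsonSubgroupOf_eq_sSup]
    exact sSup_le hJC
  refine ⟨C, hCn, hCz, hJ, sSup_le fun U ⟨hUS, hUE, hJU⟩ => ?_⟩
  have hVe : Cfsg.IsElementaryAbelian 2 V := ⟨inferInstance, hV2⟩
  obtain ⟨A, hA⟩ := Modules.maxElemAbIn_nonempty 2 (S : Subgroup G)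
  have hVU : V ≤ U :=
    (le_of_maxElem hVe hVS hA (hJC A hA)).trans ((Modules.le_thompsonSubgroupOf hA).trans hJU)
  refine hUE V hVU (le_top.trans (Subgroup.normalizer_eq_top_iff.2 hVn).ge) hVe ?_
  intro R hRU h1 h2 h3
  set RB := R.map π with hRB
  have hsq : ∀ r ∈ RB, r * r = 1 := by
    rintro _ ⟨r, hr, rfl⟩
    rw [← map_mul, ← sq]
    exact (QuotientGroup.eq_one_iff _).2 (h2 r hr)
  obtain ⟨b1, b2⟩ := hB (actHom V) (CF.actHom_injective V) hV' hO hS3
    (secK_of_surjective hπs hG.sec) RB hsq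
  have hc1 : Nat.card RB * Nat.card (R ⊓ C : Subgroup G) = Nat.card R := by
    have h := OffThm.card_map_mul_card_inf_ker π R
    rwa [QuotientGroup.ker_mk'] at h
  have hr1 : 1 < Nat.card RB := by
    rw [Subgroup.one_lt_card_iff_ne_bot, hRB, Ne, Subgroup.map_eq_bot_iff, QuotientGroup.ker_mk']
    exact h3
  have hc2 : Nat.card (fixSub (actHom V) RB) =
      Nat.card (V ⊓ Subgroup.centralizer (R : Set G) : Subgroup G) := by
    rw [← Subgroup.card_map_of_injective V.subtype_injective]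
    congr 2
    ext x
    constructor
    · rintro ⟨v, hv, rfl⟩
      refine ⟨v.2, Subgroup.mem_centralizer_iff.2 fun r hr => ?_⟩
      have e := congrArg Subtype.val (hv (π r) ⟨r, hr, rfl⟩)
      exact mul_inv_eq_iff_eq_mul.1 ((CF.actHom_mk V r v).symm.trans e)
    · rintro ⟨hx, hx'⟩
      refine ⟨⟨x, hx⟩, ?_, rfl⟩
      rintro _ ⟨r, hr, rfl⟩
      refine Subtype.ext ((CF.actHom_mk V r ⟨x, hx⟩).trans ?_)
      exact mul_inv_eq_iff_eq_mul.2 (Subgroup.mem_centralizer_iff.1 hx' r hr)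
  have hc3 : Nat.card (commSub (actHom V) RB) ≤ Nat.card (⁅V, R⁆ : Subgroup G) := by
    rw [← Subgroup.card_map_of_injective V.subtype_injective (K := commSub (actHom V) RB)]
    refine Subgroup.card_le_of_le ?_
    rw [Subgroup.map_le_iff_le_comap, commSub, Subgroup.closure_le]
    rintro _ ⟨_, ⟨r, hr, rfl⟩, v, rfl⟩
    show ((actHom V (π r) v * v⁻¹ : V) : G) ∈ ⁅V, R⁆
    rw [Subgroup.coe_mul, show ((actHom V (π r) v : V) : G) = r * v * r⁻¹ from CF.actHom_mk V r v,
      Subgroup.coe_inv, Subgroup.commutator_comm, ← commutatorElement_def]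
    exact Subgroup.commutator_mem_commutator hr v.2
  have hk : 0 < Nat.card (R ⊓ C : Subgroup G) := Nat.card_pos
  rw [hc2] at b1
  set r := Nat.card RB
  set k := Nat.card (R ⊓ C : Subgroup G)
  set c := Nat.card (V ⊓ Subgroup.centralizer (R : Set G) : Subgroup G)
  have hc0 : 0 < c := Nat.card_pos
  constructor
  · rw [← hc1]
    calc (r * k) ^ 3 * c ^ 2 < (r ^ 2 * c) ^ 2 * k ^ 3 := by
          have e1 : (r ^ 2 * c) ^ 2 * k ^ 3 = r * (r ^ 3 * k ^ 3 * c ^ 2) := by ring
          rw [mul_pow, e1]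
          exact lt_mul_of_one_lt_left (by positivity) hr1
      _ ≤ _ := Nat.mul_le_mul_right _ (Nat.pow_le_pow_left b1 2)
  · rw [← hc1]
    calc r * k < r ^ 2 * k := by
          refine Nat.mul_lt_mul_of_pos_right ?_ hk
          rw [sq]; exact lt_mul_of_one_lt_left (by omega) hr1
      _ ≤ _ := Nat.mul_le_mul_right _ (b2.trans hc3)

/-- The elements normalising `Ĵ(S)` and `J(S)` cover the group modulo the normal subgroup. -/
theorem exists_frattini [Fact (Nat.Prime 2)] (S : Sylow 2 G) {C : Subgroup G} (hCn : C.Normal)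
    (hJ : Cfsg.thompsonSubgroupOf 2 (S : Subgroup G) ≤ C) (g : G) :
    ∃ c ∈ C, ∃ n : G, g = c * n ∧ n ∈ Nz (Cfsg.thompsonSubgroupOf 2 (S : Subgroup G)) ∧
      (jH (S : Subgroup G) ≤ C → n ∈ Nz (jH (S : Subgroup G))) := by
  set T := (S : Subgroup G) ⊓ C with hT
  have hJT : Cfsg.thompsonSubgroupOf 2 (S : Subgroup G) ≤ T :=
    le_inf (Modules.thompsonSubgroupOf_le 2 _) hJ
  have hJeq : Cfsg.thompsonSubgroupOf 2 T = Cfsg.thompsonSubgroupOf 2 (S : Subgroup G) :=
    Modules.thompsonSubgroupOf_eq_of_le inf_le_left hJT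
  obtain ⟨n, hn, y, -, hy, rfl⟩ := (CF.isSyl_sylow S).frattini le_top
    (Subgroup.normalizer_eq_top_iff.2 hCn).ge (Subgroup.mem_top g)
  have hyJ : cj y (Cfsg.thompsonSubgroupOf 2 (S : Subgroup G)) =
      Cfsg.thompsonSubgroupOf 2 (S : Subgroup G) := by
    rw [← hJeq, cj, Modules.map_thompsonSubgroupOf (MulAut.conj y).injective]
    exact congrArg _ (cj_eq_of_mem hy)
  refine ⟨n, hn, y, rfl, CF.mem_Nz.2 hyJ, fun hĴ => CF.mem_Nz.2 ?_⟩
  have hle : ∀ z, z ∈ Nz T → cj z (Cfsg.thompsonSubgroupOf 2 (S : Subgroup G)) =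
      Cfsg.thompsonSubgroupOf 2 (S : Subgroup G) → cj z (jH (S : Subgroup G)) ≤ jH (S : Subgroup G) := by
    intro z hz hzJ
    rw [jH, cj, Subgroup.map_le_iff_le_comap]
    refine sSup_le fun U hU => ?_
    rw [← Subgroup.map_le_iff_le_comap]
    refine le_sSup ⟨?_, (eGrp_map (MulAut.conj z).injective).2 hU.2.1, ?_⟩
    · calc _ ≤ cj z T := Subgroup.map_mono (le_inf hU.1 ((le_sSup hU).trans hĴ))
        _ = T := cj_eq_of_mem hz
        _ ≤ _ := inf_le_left
    · exact hzJ.ge.trans (Subgroup.map_mono hU.2.2)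
  exact Subgroup.eq_of_le_of_card_ge (hle y hy hyJ) (Fusion.card_cj _ _).ge

end Cfsg.Agent.TwoFact
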