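import Cfsg.Agent.TwoFact.Basic

/-!
The squared bound along a chief series of a 2-group: an elementary subgroup `B` pushing `Q` into
`D` is controlled by the index in `D` of the fixed points of the whole group.
-/

set_option autoImplicit false
set_option linter.unusedSectionVars false
set_option linter.style.haveILetI false

open scoped IsMulCommutative

namespace Cfsg.Agent.TwoFact

open Cfsg.Agent.CF (fixSub)
open Cfsg.Agent.FusionAux.NoOffender (delta delta_apply exists_fixed_two)

universe u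

/-- The points fixed by the whole group. -/
def fixAll {L Q : Type u} [Group L] [Group Q] (ψ : L →* MulAut Q) : Subgroup Q where
  carrier := {q | ∀ l, ψ l q = q}
  one_mem' l := map_one _
  mul_mem' ha hb l := by rw [map_mul, ha l, hb l]
  inv_mem' ha l := by rw [map_inv, ha l]

theorem mem_fixAll {L Q : Type u} [Group L] [Group Q] {ψ : L →* MulAut Q} {q : Q} :
    q ∈ fixAll ψ ↔ ∀ l, ψ l q = q := Iff.rfl

/-- The action on an invariant subgroup. -/
def subAct {L Q : Type u} [Group L] [Group Q] (ψ : L →* MulAut Q) (W : Subgroup Q)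
    (hW : ∀ l, ∀ w ∈ W, ψ l w ∈ W) : L →* MulAut W where
  toFun l :=
    { toFun := fun w => ⟨ψ l w, hW l w w.2⟩
      invFun := fun w => ⟨ψ l⁻¹ w, hW _ w w.2⟩
      left_inv := fun w => Subtype.ext (show ψ l⁻¹ (ψ l (w : Q)) = w by
        rw [← MulAut.mul_apply, ← map_mul, inv_mul_cancel, map_one]; rfl)
      right_inv := fun w => Subtype.ext (show ψ l (ψ l⁻¹ (w : Q)) = w by
        rw [← MulAut.mul_apply, ← map_mul, mul_inv_cancel, map_one]; rfl)
      map_mul' := fun a b => Subtype.ext (map_mul _ _ _) }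
  map_one' := MulEquiv.ext fun w => Subtype.ext (show ψ 1 (w : Q) = w by rw [map_one]; rfl)
  map_mul' a b := MulEquiv.ext fun w => Subtype.ext
    (show ψ (a * b) (w : Q) = ψ a (ψ b w) by rw [map_mul]; rfl)

theorem subAct_coe {L Q : Type u} [Group L] [Group Q] (ψ : L →* MulAut Q) (W : Subgroup Q)
    (hW : ∀ l, ∀ w ∈ W, ψ l w ∈ W) (l : L) (w : W) :
    ((subAct ψ W hW l w : W) : Q) = ψ l w := rfl

theorem map_eq_of_inv {L Q : Type u} [Group L] [Group Q] (ψ : L →* MulAut Q) (W : Subgroup Q)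
    (hW : ∀ l, ∀ w ∈ W, ψ l w ∈ W) (l : L) : W.map (ψ l).toMonoidHom = W := by
  refine le_antisymm ?_ fun w hw => ⟨ψ l⁻¹ w, hW _ w hw, ?_⟩
  · rintro _ ⟨w, hw, rfl⟩
    exact hW l w hw
  · show ψ l (ψ l⁻¹ w) = w
    rw [← MulAut.mul_apply, ← map_mul, mul_inv_cancel, map_one]; rfl

/-- The action on the quotient by an invariant normal subgroup. -/
def quotAct {L Q : Type u} [Group L] [Group Q] (ψ : L →* MulAut Q) (W : Subgroup Q) [W.Normal]
    (hW : ∀ l, ∀ w ∈ W, ψ l w ∈ W) : L →* MulAut (Q ⧸ W) where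
  toFun l := QuotientGroup.congr W W (ψ l) (map_eq_of_inv ψ W hW l)
  map_one' := MulEquiv.ext fun q => QuotientGroup.induction_on q fun m => by
    show ((ψ 1 m : Q) : Q ⧸ W) = m
    rw [map_one]; rfl
  map_mul' a b := MulEquiv.ext fun q => QuotientGroup.induction_on q fun m => by
    show ((ψ (a * b) m : Q) : Q ⧸ W) = ((ψ a (ψ b m) : Q) : Q ⧸ W)
    rw [map_mul]; rfl

theorem quotAct_mk {L Q : Type u} [Group L] [Group Q] (ψ : L →* MulAut Q) (W : Subgroup Q)
    [W.Normal] (hW : ∀ l, ∀ w ∈ W, ψ l w ∈ W) (l : L) (q : Q) :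
    quotAct ψ W hW l (q : Q ⧸ W) = ((ψ l q : Q) : Q ⧸ W) := rfl

theorem card_map_mul_card_inf {X H : Type u} [Group X] [Group H] [Finite X] [Finite H] (π : H →* X)
    (B : Subgroup H) : Nat.card (B.map π) * Nat.card (B ⊓ π.ker : Subgroup H) = Nat.card B :=
  OffThm.card_map_mul_card_inf_ker π B

/-- The relative commutator bound. -/
theorem exists_core_bound (hB : TwoBound.{u}) :
    ∀ (n : ℕ) {Q : Type u} [Group Q] [Finite Q], Nat.card Q ≤ n → IsPGroup 2 Q →
    ∀ {L : Type u} [Group L] [Finite L] (ψ : L →* MulAut Q),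
    ¬ Cfsg.Involves (Equiv.Perm (Fin 3)) L → SecK L →
    ∀ (B : Subgroup L) (D : Subgroup Q), (∀ b ∈ B, b * b = 1) →
    (∀ b ∈ B, ∀ q, ψ b q * q⁻¹ ∈ D) →
    ∃ N : Subgroup L, N.Normal ∧ IsPGroup 2 (N.map ψ) ∧
      Nat.card B ^ 2 * Nat.card (D ⊓ fixAll ψ : Subgroup Q) ≤
        Nat.card (B ⊓ N : Subgroup L) ^ 2 * Nat.card D := by
  haveI : Fact (Nat.Prime 2) := ⟨Nat.prime_two⟩
  intro n
  induction n with
  | zero => intro Q _ _ h; exact absurd h (not_le.2 Nat.card_pos)
  | succ n ih =>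
    intro Q _ _ hn hQ L _ _ ψ hS3 hsec B D hsq hD
    rcases subsingleton_or_nontrivial Q with hsub | hnt
    · refine ⟨⊤, inferInstance, ?_, ?_⟩
      · intro x
        refine ⟨0, Subtype.ext (MulEquiv.ext fun q => Subsingleton.elim _ _)⟩
      · rw [inf_top_eq]
        gcongr
        exact Subgroup.card_le_of_le inf_le_left
    -- a minimal invariant central subgroup of exponent two
    have hex : ∃ W : Subgroup Q, W ≠ ⊥ ∧ (∀ l, ∀ w ∈ W, ψ l w ∈ W) ∧
        W ≤ Subgroup.center Q ∧ ∀ w ∈ W, w * w = 1 := by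
      haveI := hQ.center_nontrivial
      obtain ⟨k, -, hk⟩ := (hQ.to_subgroup (Subgroup.center Q)).nontrivial_iff_card.1
        inferInstance
      let W : Subgroup Q :=
        { carrier := {z | z ∈ Subgroup.center Q ∧ z * z = 1}
          one_mem' := ⟨one_mem _, one_mul 1⟩
          mul_mem' := fun {a b} ha hb => ⟨mul_mem ha.1 hb.1, by
            have hc : Commute a b := (Subgroup.mem_center_iff.1 ha.1 b).symm
            rw [← sq, hc.mul_pow, sq, sq, ha.2, hb.2, one_mul]⟩
          inv_mem' := fun {a} ha => ⟨inv_mem ha.1, by rw [← mul_inv_rev, ha.2, inv_one]⟩ }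
      refine ⟨W, fun h => ?_, fun l w hw => ⟨?_, ?_⟩, fun w hw => hw.1, fun w hw => hw.2⟩
      · obtain ⟨z, hz⟩ := exists_prime_orderOf_dvd_card' (G := Subgroup.center Q) 2
          (hk ▸ dvd_pow_self 2 (by
            rintro rfl
            rw [pow_zero] at hk
            exact (Finite.one_lt_card (α := Subgroup.center Q)).ne' hk))
        have h2 : (z : Q) ∈ W := ⟨z.2, by
          rw [← sq, ← SubgroupClass.coe_pow, ← hz, pow_orderOf_eq_one, OneMemClass.coe_one]⟩
        rw [h, Subgroup.mem_bot] at h2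
        rw [show z = 1 from Subtype.ext h2, orderOf_one] at hz
        exact absurd hz (by norm_num)
      · refine Subgroup.mem_center_iff.2 fun y => ?_
        obtain ⟨y, rfl⟩ := (ψ l).surjective y
        rw [← map_mul, ← map_mul, Subgroup.mem_center_iff.1 hw.1 y]
      · rw [← map_mul, hw.2, map_one]
    obtain ⟨Q1, ⟨hne, hinv, hcen, hsq1⟩, hmin⟩ := Set.exists_min_image
      {W : Subgroup Q | W ≠ ⊥ ∧ (∀ l, ∀ w ∈ W, ψ l w ∈ W) ∧ W ≤ Subgroup.center Q ∧
        ∀ w ∈ W, w * w = 1} (fun W => Nat.card W) (Set.toFinite _) hex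
    have hirr : ∀ W ≤ Q1, (∀ l, ∀ w ∈ W, ψ l w ∈ W) → W = ⊥ ∨ W = Q1 := by
      intro W hW hWi
      refine (em (W = ⊥)).imp id fun hW0 => Subgroup.eq_of_le_of_card_ge hW ?_
      exact hmin W ⟨hW0, hWi, hW.trans hcen, fun w hw => hsq1 w (hW hw)⟩
    haveI hQ1n : Q1.Normal := ⟨fun w hw q => by
      rwa [Subgroup.mem_center_iff.1 (hcen hw) q, mul_inv_cancel_right]⟩
    letI : CommGroup Q1 :=
      { (inferInstance : Group Q1) with
        mul_comm := fun a b => Subtype.ext (Subgroup.mem_center_iff.1 (hcen b.2) (a : Q)) }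
    have hM : ∀ w : Q1, w * w = 1 := fun w => Subtype.ext (hsq1 w w.2)
    set ψ1 := subAct ψ Q1 hinv with hψ1
    set X := ψ1.range with hX
    set π := ψ1.rangeRestrict with hπ
    have hπs : Function.Surjective π := ψ1.rangeRestrict_surjective
    have hS3X : ¬ Cfsg.Involves (Equiv.Perm (Fin 3)) X := fun h => hS3
      (EvenLocal.involves_of_involves_image (π.comp (Subgroup.topEquiv : (⊤ : Subgroup L) ≃* L).toMonoidHom)
        (hπs.comp (MulEquiv.surjective _)) h)
    have hsecX : SecK X := secK_of_surjective hπs hsec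
    have hOX : Cfsg.pCore 2 X = ⊥ := by
      obtain ⟨w0, hw0, hw01⟩ := (Subgroup.bot_or_exists_ne_one Q1).resolve_left hne
      obtain ⟨u, hu, hu1⟩ := exists_fixed_two X.subtype (Cores.pCore_isPGroup (p := 2)) hM
        (m₀ := ⟨w0, hw0⟩) fun e => hw01 (congrArg Subtype.val e)
      set F := (fixSub X.subtype (Cfsg.pCore 2 X)).map Q1.subtype with hF
      have hFinv : ∀ l, ∀ w ∈ F, ψ l w ∈ F := by
        rintro l _ ⟨w, hw, rfl⟩
        refine ⟨ψ1 l w, fun p hp => ?_, rfl⟩
        have h := hw ((π l)⁻¹ * p * π l) (by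
          simpa using (Cores.pCore_normal_inst (p := 2) X).conj_mem p hp (π l)⁻¹)
        have h' := congrArg (X.subtype (π l)) h
        rw [← CF.apply_mul, ← mul_assoc, ← mul_assoc, mul_inv_cancel, one_mul, CF.apply_mul] at h'
        exact h'
      rcases hirr F (Subgroup.map_subtype_le _) hFinv with h | h
      · refine absurd ?_ hu1
        exact Subtype.ext (Subgroup.mem_bot.1 (h.le ⟨u, hu, rfl⟩))
      · refine eq_bot_iff.2 fun p hp => Subgroup.mem_bot.2 (Subtype.ext (MulEquiv.ext fun w => ?_))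
        obtain ⟨w', hw', he⟩ := h.ge w.2
        obtain rfl : w' = w := Subtype.ext he
        exact hw' p hp
    -- the bound on the bottom factor
    set L1 := ψ1.ker with hL1
    set B1 := B ⊓ L1 with hB1
    have hbot : Nat.card (B.map π) ^ 2 * Nat.card (D ⊓ Q1 ⊓ fixAll ψ : Subgroup Q) ≤
        Nat.card (D ⊓ Q1 : Subgroup Q) := by
      rcases hirr (fixAll ψ ⊓ Q1) inf_le_right (fun l w hw =>
        ⟨by rw [hw.1 l]; exact hw.1, hinv l w hw.2⟩) with h | h
      · have hb := (hB X.subtype Subtype.coe_injective hM hOX hS3X hsecX (B.map π) (by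
          rintro _ ⟨b, hb, rfl⟩
          rw [← map_mul, hsq b hb, map_one])).2
        rw [show D ⊓ Q1 ⊓ fixAll ψ = ⊥ from le_bot_iff.1
          ((le_inf inf_le_right (inf_le_left.trans inf_le_right)).trans h.le), Subgroup.card_bot,
          mul_one]
        refine hb.trans ?_
        rw [← Subgroup.card_map_of_injective Q1.subtype_injective
          (K := commSub X.subtype (B.map π))]
        refine Subgroup.card_le_of_le ?_
        rw [Subgroup.map_le_iff_le_comap, commSub, Subgroup.closure_le]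
        rintro _ ⟨_, ⟨b, hb', rfl⟩, w, rfl⟩
        exact ⟨hD b hb' w, (delta X.subtype (π b) w).2⟩
      · have htriv : B.map π = ⊥ := by
          refine eq_bot_iff.2 ?_
          rintro _ ⟨b, -, rfl⟩
          exact Subgroup.mem_bot.2 (Subtype.ext (MulEquiv.ext fun w =>
            Subtype.ext ((h.ge w.2).1 b)))
        rw [htriv, Subgroup.card_bot, one_pow, one_mul]
        exact Subgroup.card_le_of_le inf_le_left
    -- induction on the quotient
    have hcard : Nat.card (Q ⧸ Q1) ≤ n := by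
      have h1 := Subgroup.card_eq_card_quotient_mul_card_subgroup Q1
      have h2 : 1 < Nat.card Q1 := (Subgroup.one_lt_card_iff_ne_bot Q1).2 hne
      have h3 : Nat.card (Q ⧸ Q1) < Nat.card Q := by
        rw [h1]; exact lt_mul_of_one_lt_right Nat.card_pos h2
      omega
    set ψ2 := quotAct ψ Q1 hinv with hψ2
    set mk := QuotientGroup.mk' Q1 with hmk
    obtain ⟨N1, hN1, hN1p, hN1le⟩ := ih hcard (hQ.to_quotient Q1) (ψ2.comp L1.subtype)
      (fun h => hS3 (EvenLocal.involves_subgroup h))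
      (secK_of_injective L1.subtype_injective hsec) (B.subgroupOf L1) (D.map mk)
      (fun b hb => Subtype.ext (hsq (b : L) hb)) (fun b hb q => by
        induction q using QuotientGroup.induction_on with
        | _ q => exact ⟨ψ (b : L) q * q⁻¹, hD b hb q, rfl⟩)
    set N := L1 ⊓ (Cfsg.pCore 2 ψ2.range).comap ψ2.rangeRestrict with hN
    haveI hL1n : L1.Normal := by rw [hL1]; infer_instance
    have hNn : N.Normal := Subgroup.normal_inf_normal _ _
    have hN1N : N1.map L1.subtype ≤ N := by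
      refine le_inf (Subgroup.map_subtype_le _) ?_
      set K := L1.map ψ2.rangeRestrict with hK
      haveI hKn : K.Normal := Subgroup.Normal.map hL1n _ ψ2.rangeRestrict_surjective
      let f : L1 →* K := (ψ2.rangeRestrict.comp L1.subtype).codRestrict K
        fun l => ⟨(l : L), l.2, rfl⟩
      have hf : Function.Surjective f := by
        rintro ⟨_, l, hl, rfl⟩
        exact ⟨⟨l, hl⟩, rfl⟩
      have h1 : IsPGroup 2 (N1.map f) := by
        let e : N1.map f →* N1.map (ψ2.comp L1.subtype) :=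
          ((ψ2.range.subtype.comp K.subtype).comp (N1.map f).subtype).codRestrict _ (by
            rintro ⟨_, x, hx, rfl⟩
            exact ⟨x, hx, rfl⟩)
        refine hN1p.of_injective e ?_
        intro a b h
        exact Subtype.ext (Subtype.ext (Subtype.ext
          (congrArg (fun z => ((z : N1.map (ψ2.comp L1.subtype)) : MulAut (Q ⧸ Q1))) h)))
      have h2 := Cores.le_pCore (Subgroup.Normal.map hN1 f hf) h1
      rintro _ ⟨x, hx, rfl⟩
      exact Cores.map_subtype_pCore_le (N := K) ⟨f x, h2 ⟨x, hx, rfl⟩, rfl⟩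
    refine ⟨N, hNn, ?_, ?_⟩
    · rintro ⟨_, l, ⟨hl1, hl2⟩, rfl⟩
      obtain ⟨k, hk⟩ := (Cores.pCore_isPGroup (p := 2) (G := ψ2.range)) ⟨_, hl2⟩
      refine ⟨k + 1, Subtype.ext (MulEquiv.ext fun q => ?_)⟩
      have hk' : ψ2 (l ^ 2 ^ k) = 1 := by
        have := congrArg ψ2.range.subtype (congrArg Subtype.val hk)
        simpa [map_pow] using this
      set m := l ^ 2 ^ k with hm
      have hmL1 : m ∈ L1 := pow_mem hl1 _
      show ((ψ l) ^ 2 ^ (k + 1)) q = q
      rw [← map_pow, pow_succ, pow_mul, ← hm, sq, map_mul, MulAut.mul_apply]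
      have hz : ψ m q * q⁻¹ ∈ Q1 := by
        have h := DFunLike.congr_fun hk' (q : Q ⧸ Q1)
        rw [hψ2, quotAct_mk] at h
        rw [← QuotientGroup.eq_one_iff, QuotientGroup.mk_mul, h, MulAut.one_apply,
          ← QuotientGroup.mk_mul, mul_inv_cancel, QuotientGroup.mk_one]
      set z := ψ m q * q⁻¹ with hzdef
      have hq : ψ m q = z * q := by rw [hzdef, inv_mul_cancel_right]
      have hzfix : ψ m z = z := by
        have := DFunLike.congr_fun (MonoidHom.mem_ker.1 hmL1) ⟨z, hz⟩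
        exact congrArg Subtype.val this
      rw [hq, map_mul, hzfix, hq, ← mul_assoc, hsq1 z hz, one_mul]
    · have e1 : Nat.card (B.map π) * Nat.card B1 = Nat.card B := by
        have h := card_map_mul_card_inf π B
        rwa [show π.ker = L1 by rw [hπ, MonoidHom.ker_rangeRestrict]] at h
      have e2 : Nat.card (B.subgroupOf L1) = Nat.card B1 := by
        rw [← Subgroup.card_map_of_injective L1.subtype_injective, Subgroup.subgroupOf_map_subtype]
      have e3 : Nat.card (B.subgroupOf L1 ⊓ N1 : Subgroup L1) ≤ Nat.card (B ⊓ N : Subgroup L) := by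
        rw [← Subgroup.card_map_of_injective L1.subtype_injective]
        refine Subgroup.card_le_of_le ?_
        rintro _ ⟨x, ⟨hx1, hx2⟩, rfl⟩
        exact ⟨hx1, hN1N ⟨x, hx2, rfl⟩⟩
      have e4 : Nat.card (D.map mk) * Nat.card (D ⊓ Q1 : Subgroup Q) = Nat.card D := by
        have h := card_map_mul_card_inf mk D
        rwa [hmk, QuotientGroup.ker_mk'] at h
      have e5 : Nat.card ((D ⊓ fixAll ψ).map mk) * Nat.card (D ⊓ Q1 ⊓ fixAll ψ : Subgroup Q) =
          Nat.card (D ⊓ fixAll ψ : Subgroup Q) := by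
        have h := card_map_mul_card_inf mk (D ⊓ fixAll ψ)
        rwa [hmk, QuotientGroup.ker_mk', inf_right_comm] at h
      have e6 : Nat.card ((D ⊓ fixAll ψ).map mk) ≤
          Nat.card (D.map mk ⊓ fixAll (ψ2.comp L1.subtype) : Subgroup (Q ⧸ Q1)) := by
        refine Subgroup.card_le_of_le ?_
        rintro _ ⟨q, ⟨hq1, hq2⟩, rfl⟩
        refine ⟨⟨q, hq1, rfl⟩, fun l => ?_⟩
        show quotAct ψ Q1 hinv (l : L) (q : Q ⧸ Q1) = (q : Q ⧸ Q1)
        rw [quotAct_mk, hq2]
      rw [e2] at hN1le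
      rw [← e1, ← e4, ← e5]
      calc (Nat.card (B.map π) * Nat.card B1) ^ 2 *
            (Nat.card ((D ⊓ fixAll ψ).map mk) * Nat.card (D ⊓ Q1 ⊓ fixAll ψ : Subgroup Q))
          = (Nat.card (B.map π) ^ 2 * Nat.card (D ⊓ Q1 ⊓ fixAll ψ : Subgroup Q)) *
            (Nat.card B1 ^ 2 * Nat.card ((D ⊓ fixAll ψ).map mk)) := by ring
        _ ≤ Nat.card (D ⊓ Q1 : Subgroup Q) * (Nat.card B1 ^ 2 *
            Nat.card (D.map mk ⊓ fixAll (ψ2.comp L1.subtype) : Subgroup (Q ⧸ Q1))) :=
          Nat.mul_le_mul hbot (Nat.mul_le_mul_left _ e6)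
        _ ≤ Nat.card (D ⊓ Q1 : Subgroup Q) *
            (Nat.card (B ⊓ N : Subgroup L) ^ 2 * Nat.card (D.map mk)) :=
          Nat.mul_le_mul_left _ (hN1le.trans (Nat.mul_le_mul_right _ (Nat.pow_le_pow_left e3 2)))
        _ = _ := by ring

end Cfsg.Agent.TwoFact
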