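import Cfsg.Agent.TwoFact.FusionFun
import Mathlib.GroupTheory.Transfer

/-!
The normal closure of `Ω₁Z(S)` in `N(J(S))` is strongly closed and controls fusion.
-/

set_option autoImplicit false
set_option linter.unusedSectionVars false
set_option linter.style.haveILetI false

namespace Cfsg.Agent.TwoFact

open Cfsg.Agent.CF (Fam FusIn Nz IsSec IsSyl omZ)
open Cfsg.Agent.Fusion (cj mem_cj conj_mem_cj cj_eq_of_mem)
open Cfsg.Agent.FusionAux.MinParabolic (Constr)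

universe u

variable {G : Type u} [Group G] [Finite G]

theorem isSyl_restrict [Fact (Nat.Prime 2)] (S : Sylow 2 G) {H : Subgroup G}
    (h : (S : Subgroup G) ≤ H) : IsSyl 2 (S : Subgroup G) H :=
  ⟨h, S.2, fun hd => (CF.isSyl_sylow S).idx
    (hd.trans (Dvd.intro _ (Subgroup.relIndex_mul_relIndex _ _ _ h le_top)))⟩

theorem eq_one_of_odd {X : Type u} [Group X] {Q : Subgroup X} (hQ : IsPGroup 2 Q) {q : X}
    (hq : q ∈ Q) {n : ℕ} (hn : Odd n) (h : q ^ n = 1) : q = 1 := by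
  obtain ⟨k, hk⟩ := hQ ⟨q, hq⟩
  have hk' : q ^ 2 ^ k = 1 := congrArg Subtype.val hk
  have := pow_gcd_eq_one.2 ⟨hk', h⟩
  rwa [Nat.Coprime.pow_left k (Nat.coprime_two_left.2 hn), pow_one] at this

/-- A central Sylow 2-subgroup has a complement consisting of all elements of odd order. -/
theorem exists_odd_complement [Fact (Nat.Prime 2)] {X : Type u} [Group X] [Finite X]
    (P : Sylow 2 X) (h : ∀ x : X, ∀ p ∈ (P : Subgroup X), p * x = x * p) :
    ∃ D : Subgroup X, Odd (Nat.card D) ∧ (∀ x : X, ∀ k, Odd k → x ^ k = 1 → x ∈ D) ∧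
      ∀ x : X, ∃ d ∈ D, ∃ p ∈ (P : Subgroup X), x = d * p := by
  have hP : Subgroup.normalizer ((P : Subgroup X) : Set X) ≤
      Subgroup.centralizer ((P : Subgroup X) : Set X) :=
    fun x _ => Subgroup.mem_centralizer_iff.2 fun p hp => h x p hp
  refine ⟨(MonoidHom.transferSylow P hP).ker, ?_, fun x k hk hx => ?_, fun x => ?_⟩
  · exact Nat.odd_iff.2 (Nat.two_dvd_ne_zero.1
      (MonoidHom.not_dvd_card_ker_transferSylow P hP))
  · obtain ⟨j, hj⟩ := P.2 (MonoidHom.transferSylow P hP x)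
    have h1 : MonoidHom.transferSylow P hP x ^ k = 1 := by rw [← map_pow, hx, map_one]
    have h2 := pow_gcd_eq_one.2 ⟨hj, h1⟩
    rwa [Nat.Coprime.pow_left j (Nat.coprime_two_left.2 hk), pow_one] at h2
  · obtain ⟨⟨d, p⟩, hdp⟩ := (MonoidHom.ker_transferSylow_isComplement' P hP).2 x
    exact ⟨d, d.2, p, p.2, hdp.symm⟩

/-- The conjugates in `N` of `z ∈ Ω₁Z(S)` commute with `Ĵ(S)`, if they lie in an abelian normal
subgroup of `N` inside `S`. -/
theorem commute_conj [Fact (Nat.Prime 2)] (hB : TwoBound.{u})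
    (hfree : ¬ Cfsg.Involves (Equiv.Perm (Fin 4)) G)
    (hSec : ∀ (X : Type u) [Group X] [Finite X], IsSec X G → Constr X → SecK X)
    (S : Sylow 2 G) {N A : Subgroup G} (hSN : (S : Subgroup G) ≤ N) (hNA : N ≤ Nz A)
    (hAS : A ≤ (S : Subgroup G)) (hAA : A ≤ Subgroup.centralizer (A : Set G)) {z : G}
    (hz : z ∈ omZ 2 (S : Subgroup G)) (hzA : z ∈ A) {n : G} (hn : n ∈ N) {j : G}
    (hj : j ∈ jH (S : Subgroup G)) : j * (n * z * n⁻¹) = n * z * n⁻¹ * j := by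
  set C := N ⊓ Subgroup.centralizer (A : Set G) with hC
  set T := (S : Subgroup G) ⊓ C with hT
  have hAT : A ≤ T := le_inf hAS (le_inf (hAS.trans hSN) hAA)
  have hconjC : ∀ y ∈ N, cj y C ≤ C := by
    rintro y hy _ ⟨c, hc, rfl⟩
    refine ⟨N.mul_mem (N.mul_mem hy hc.1) (N.inv_mem hy), Subgroup.mem_centralizer_iff.2
      fun a ha => ?_⟩
    have ha' : y⁻¹ * a * y ∈ A := by
      simpa using (Subgroup.mem_normalizer_iff.1 (hNA (N.inv_mem hy)) a).1 ha
    have := Subgroup.mem_centralizer_iff.1 hc.2 _ ha'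
    show a * (y * c * y⁻¹) = y * c * y⁻¹ * a
    calc a * (y * c * y⁻¹) = y * (y⁻¹ * a * y * c) * y⁻¹ := by group
      _ = y * (c * (y⁻¹ * a * y)) * y⁻¹ := by rw [this]
      _ = _ := by group
  have hNC : N ≤ Nz C := fun y hy => CF.mem_Nz.2
    (Subgroup.eq_of_le_of_card_ge (hconjC y hy) (Fusion.card_cj _ _).ge)
  have hsylC : IsSyl 2 T C := (isSyl_restrict S hSN).inf_normal inf_le_left hNC
  obtain ⟨c, hc, m, hmN, hmT, rfl⟩ := (isSyl_restrict S hSN).frattini inf_le_left hNC hn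
  have hmz : m * z * m⁻¹ ∈ A := (Subgroup.mem_normalizer_iff.1 (hNA hmN) z).1 hzA
  have hred : c * m * z * (c * m)⁻¹ = m * z * m⁻¹ := by
    have := Subgroup.mem_centralizer_iff.1 hc.2 _ hmz
    rw [show c * m * z * (c * m)⁻¹ = c * (m * z * m⁻¹) * c⁻¹ by group, ← this, mul_inv_cancel_right]
  rw [hred]
  -- the normalizer of `T` in `N`
  set M := N ⊓ Nz T with hM
  have hSM : (S : Subgroup G) ≤ M := le_inf hSN fun s hs => CF.mem_Nz.2
    (Subgroup.eq_of_le_of_card_ge (by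
      refine le_inf ((Subgroup.map_mono inf_le_left).trans (cj_eq_of_mem
        (Subgroup.le_normalizer hs)).le) ((Subgroup.map_mono inf_le_right).trans
          (cj_eq_of_mem (hNC (hSN hs))).le)) (Fusion.card_cj _ _).ge)
  have hmM : m ∈ M := ⟨hmN, hmT⟩
  set C0 := M ⊓ Subgroup.centralizer (T : Set G) with hC0
  have hC0C : C0 ≤ C := fun x hx => ⟨hx.1.1, Subgroup.centralizer_le hAT hx.2⟩
  have hC0M : ∀ y ∈ M, ∀ x ∈ C0, y * x * y⁻¹ ∈ C0 := fun y hy x hx => by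
    refine ⟨M.mul_mem (M.mul_mem hy hx.1) (M.inv_mem hy),
      Subgroup.mem_centralizer_iff.2 fun t ht => ?_⟩
    have ht' : y⁻¹ * t * y ∈ T := by
      simpa using (Subgroup.mem_normalizer_iff.1 (inv_mem hy.2) t).1 ht
    have := Subgroup.mem_centralizer_iff.1 hx.2 _ ht'
    calc t * (y * x * y⁻¹) = y * (y⁻¹ * t * y * x) * y⁻¹ := by group
      _ = y * (x * (y⁻¹ * t * y)) * y⁻¹ := by rw [this]
      _ = _ := by group
  have hTM : T ≤ M := inf_le_left.trans hSM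
  have hsyl0 : IsSyl 2 (T ⊓ C0) C0 := by
    have h1 : IsSyl 2 T (C ⊓ M) := ⟨le_inf inf_le_right hTM, hsylC.isP, fun hd => hsylC.idx
      (hd.trans (Dvd.intro _ (Subgroup.relIndex_mul_relIndex _ _ _
        (le_inf inf_le_right hTM) inf_le_left)))⟩
    refine h1.inf_normal (le_inf hC0C inf_le_left) fun y hy => CF.mem_Nz.2
      (Subgroup.eq_of_le_of_card_ge ?_ (Fusion.card_cj _ _).ge)
    rintro _ ⟨x, hx, rfl⟩
    exact hC0M y hy.2 x hx
  let P0 : Sylow 2 C0 :=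
    IsPGroup.toSylow (P := (T ⊓ C0).subgroupOf C0) hsyl0.isP.comap_subtype hsyl0.idx
  obtain ⟨D0, hodd, hmemD, hprod⟩ := exists_odd_complement P0 fun x p hp => Subtype.ext
    (Subgroup.mem_centralizer_iff.1 x.2.2 _ (Subgroup.mem_subgroupOf.1 hp).1)
  set D := D0.map C0.subtype with hD
  have hDodd : Odd (Nat.card D) := by
    rwa [hD, Subgroup.card_map_of_injective C0.subtype_injective]
  have hDT : ∀ d ∈ D, d ∈ (S : Subgroup G) → d = 1 := fun d hd hdS =>
    eq_one_of_odd S.2 hdS hDodd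
      (congrArg Subtype.val (pow_card_eq_one' (x := (⟨d, hd⟩ : D))) :)
  haveI hDn : (D.subgroupOf M).Normal := ⟨fun d hd y => by
    obtain ⟨x, hx, he⟩ := Subgroup.mem_subgroupOf.1 hd
    have hy : (y : G) * x * (y : G)⁻¹ ∈ C0 := hC0M y y.2 x x.2
    refine Subgroup.mem_subgroupOf.2 ⟨⟨_, hy⟩, hmemD _ _ hodd (Subtype.ext ?_), ?_⟩
    · rw [SubgroupClass.coe_pow, conj_pow]
      have h1 : (x : G) ^ Nat.card D0 = 1 := congrArg Subtype.val
        (congrArg Subtype.val (pow_card_eq_one' (x := (⟨x, hx⟩ : D0))))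
      rw [h1, mul_one, mul_inv_cancel]
      rfl
    · show (y : G) * x * (y : G)⁻¹ = y * d * (y : G)⁻¹
      rw [show (x : G) = d from he]⟩
  set π := QuotientGroup.mk' (D.subgroupOf M) with hπ
  have hπs : Function.Surjective π := QuotientGroup.mk'_surjective _
  have hker : ∀ x : M, π x = 1 → (x : G) ∈ D := fun x hx =>
    Subgroup.mem_subgroupOf.1 ((QuotientGroup.eq_one_iff x).1 hx)
  have hY : IsSec (M ⧸ D.subgroupOf M) G := IsSec.of_section M D
  have hTn : (T.subgroupOf M).Normal := ⟨fun t ht y => Subgroup.mem_subgroupOf.2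
    ((Subgroup.mem_normalizer_iff.1 y.2.2 t).1 (Subgroup.mem_subgroupOf.1 ht))⟩
  have hTO : (T.subgroupOf M).map π ≤ Cfsg.pCore 2 (M ⧸ D.subgroupOf M) :=
    Cores.le_pCore (hTn.map π hπs) ((S.2.to_le inf_le_left).comap_subtype.map π)
  have hconstr : Constr (M ⧸ D.subgroupOf M) := by
    intro q hq
    obtain ⟨x, rfl⟩ := hπs q
    have hxC0 : (x : G) ∈ C0 := ⟨x.2, Subgroup.mem_centralizer_iff.2 fun t ht => ?_⟩
    · obtain ⟨d, hd, p, hp, he⟩ := hprod ⟨x, hxC0⟩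
      have hpT : (p : G) ∈ T := (Subgroup.mem_subgroupOf.1 hp).1
      have hd1 : π ⟨d, d.2.1⟩ = 1 :=
        (QuotientGroup.eq_one_iff _).2 (Subgroup.mem_subgroupOf.2 ⟨d, hd, rfl⟩)
      have hx : x = ⟨d, d.2.1⟩ * ⟨p, p.2.1⟩ := Subtype.ext (congrArg Subtype.val he :)
      rw [hx, map_mul, hd1, one_mul]
      exact hTO ⟨⟨p, p.2.1⟩, Subgroup.mem_subgroupOf.2 hpT, rfl⟩
    · set t' : M := ⟨t, hTM ht⟩
      have h1 := Subgroup.mem_centralizer_iff.1 hq (π t')
        (hTO ⟨t', Subgroup.mem_subgroupOf.2 ht, rfl⟩)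
      have h2 : π (t' * x * t'⁻¹ * x⁻¹) = 1 := by
        rw [map_mul, map_mul, map_mul, map_inv, map_inv, h1, mul_inv_cancel_right, mul_inv_cancel]
      have h3 : t * x * t⁻¹ * (x : G)⁻¹ ∈ T := by
        rw [show t * x * t⁻¹ * (x : G)⁻¹ = t * (x * t⁻¹ * (x : G)⁻¹) by group]
        exact T.mul_mem ht ((Subgroup.mem_normalizer_iff.1 x.2.2 _).1 (T.inv_mem ht))
      have h4 := hDT _ (hker _ h2) h3.1
      exact mul_inv_eq_iff_eq_mul.1 (mul_inv_eq_one.1 h4)
  have hH : Hyp (M ⧸ D.subgroupOf M) :=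
    ⟨hconstr, fun h => hfree (OffThm.involves_of_isSec hY h), hSec _ hY hconstr⟩
  set SY : Sylow 2 (M ⧸ D.subgroupOf M) := (S.subtype hSM).mapSurjective hπs with hSY
  let f : (S : Subgroup G) →* M ⧸ D.subgroupOf M := π.comp (Subgroup.inclusion hSM)
  have hf : Function.Injective f := by
    refine (injective_iff_map_eq_one f).2 fun s hs => Subtype.ext (hDT _ (hker _ hs) s.2)
  have hSYe : (SY : Subgroup (M ⧸ D.subgroupOf M)) = (⊤ : Subgroup (S : Subgroup G)).map f := by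
    show ((S : Subgroup G).subgroupOf M).map π = _
    ext q
    constructor
    · rintro ⟨s, hs, rfl⟩; exact ⟨⟨s, hs⟩, trivial, rfl⟩
    · rintro ⟨s, -, rfl⟩; exact ⟨⟨s, hSM s.2⟩, s.2, rfl⟩
  -- apply the second factorisation
  obtain ⟨C', hC'n, hC'z, hJC', hjC'⟩ := exists_core hB hH SY
  obtain ⟨c', hc', k, hk, -, hkJ⟩ := exists_frattini SY hC'n hJC' (π ⟨m, hmM⟩)⁻¹
  have hk' := hkJ hjC'
  set jY := π ⟨j, hSM (jH_le _ hj)⟩
  have hjY : jY ∈ jH (SY : Subgroup (M ⧸ D.subgroupOf M)) := by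
    rw [hSYe, jH_map hf]
    have : j ∈ (jH (⊤ : Subgroup (S : Subgroup G))).map (S : Subgroup G).subtype := by
      rw [← jH_map (Subgroup.subtype_injective _), ← MonoidHom.range_eq_map,
        Subgroup.range_subtype]
      exact hj
    obtain ⟨j', hj', rfl⟩ := this
    exact ⟨j', hj', rfl⟩
  set zY := π ⟨z, hSM (CF.omZ_le 2 _ hz)⟩
  have hzS : zY ∈ (SY : Subgroup (M ⧸ D.subgroupOf M)) :=
    ⟨⟨z, hSM (CF.omZ_le 2 _ hz)⟩, CF.omZ_le 2 (S : Subgroup G) hz, rfl⟩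
  have hzc : ∀ q ∈ (SY : Subgroup (M ⧸ D.subgroupOf M)), q * zY = zY * q := by
    intro q hq
    rw [hSYe] at hq
    obtain ⟨s, -, rfl⟩ := hq
    show π ⟨s, hSM s.2⟩ * π _ = π _ * π ⟨s, hSM s.2⟩
    rw [← map_mul, ← map_mul]
    exact congrArg π (Subtype.ext (mem_omZ_comm hz s.2))
  have hcz : c' * zY = zY * c' := (Subgroup.mem_centralizer_iff.1 (hC'z hc') zY
    ⟨hzS, Subgroup.mem_centralizer_iff.2 hzc⟩).symm
  set w := π ⟨m, hmM⟩ * zY * (π ⟨m, hmM⟩)⁻¹ with hw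
  have hwk : w = k⁻¹ * zY * k := by
    rw [hw, show π ⟨m, hmM⟩ = k⁻¹ * c'⁻¹ by rw [← mul_inv_rev, ← hk, inv_inv],
      show k⁻¹ * c'⁻¹ * zY * (k⁻¹ * c'⁻¹)⁻¹ = k⁻¹ * (c'⁻¹ * (zY * c')) * k by group, ← hcz]
    group
  have hcomm : jY * w = w * jY := by
    have h1 : k * jY * k⁻¹ ∈ (SY : Subgroup (M ⧸ D.subgroupOf M)) :=
      jH_le _ ((Subgroup.mem_normalizer_iff.1 hk' jY).1 hjY)
    have h2 := hzc _ h1
    rw [hwk]
    calc jY * (k⁻¹ * zY * k) = k⁻¹ * (k * jY * k⁻¹ * zY) * k := by group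
      _ = k⁻¹ * (zY * (k * jY * k⁻¹)) * k := by rw [h2]
      _ = _ := by group
  have hjS : j ∈ (S : Subgroup G) := jH_le _ hj
  have h5 : π (⟨j, hSM hjS⟩ * ⟨m * z * m⁻¹, hSM (hAS hmz)⟩ * ⟨j, hSM hjS⟩⁻¹ *
      ⟨m * z * m⁻¹, hSM (hAS hmz)⟩⁻¹) = 1 := by
    have e : π ⟨m * z * m⁻¹, hSM (hAS hmz)⟩ = w := by
      rw [hw, ← map_inv, ← map_mul, ← map_mul]
      rfl
    rw [map_mul, map_mul, map_mul, map_inv, map_inv, e]
    show jY * w * jY⁻¹ * w⁻¹ = 1
    rw [hcomm, mul_inv_cancel_right, mul_inv_cancel]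
  have h6 := hDT _ (hker _ h5) ((S : Subgroup G).mul_mem ((S : Subgroup G).mul_mem
    ((S : Subgroup G).mul_mem hjS (hAS hmz)) ((S : Subgroup G).inv_mem hjS))
    ((S : Subgroup G).inv_mem (hAS hmz)))
  exact mul_inv_eq_iff_eq_mul.1 (mul_inv_eq_one.1 h6)

/-- The strongly closed abelian subgroup. -/
theorem strongly_closed [Fact (Nat.Prime 2)] (hB : TwoBound.{u}) (hSp : SpreadFact.{u})
    (hIn : InnerFact.{u}) (hfree : ¬ Cfsg.Involves (Equiv.Perm (Fin 4)) G)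
    (hSec : ∀ (X : Type u) [Group X] [Finite X], IsSec X G → Constr X → SecK X) (S : Sylow 2 G)
    (N : Subgroup G) (hN : N = Nz (Cfsg.thompsonSubgroupOf 2 (S : Subgroup G)))
    (A : Subgroup G) (hA : A = (Subgroup.normalClosure (((omZ 2 (S : Subgroup G)).subgroupOf N :
      Subgroup ↥N) : Set ↥N)).map N.subtype) :
    A ≤ (S : Subgroup G) ∧ Cfsg.IsElementaryAbelian 2 A ∧
      Cfsg.IsStronglyClosed A (S : Subgroup G) ∧ Cfsg.ControlsStrongFusion 2 A := by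
  set J := Cfsg.thompsonSubgroupOf 2 (S : Subgroup G) with hJ
  have hSN : (S : Subgroup G) ≤ N := fun s hs => by
    rw [hN, CF.mem_Nz, hJ, cj, Modules.map_thompsonSubgroupOf (MulAut.conj s).injective]
    exact congrArg _ (cj_eq_of_mem (Subgroup.le_normalizer hs))
  have hJS : J ≤ (S : Subgroup G) := Modules.thompsonSubgroupOf_le 2 _
  have hzA : omZ 2 (S : Subgroup G) ≤ A := fun z hz => by
    rw [hA]
    exact ⟨⟨z, hSN (CF.omZ_le 2 _ hz)⟩,
      Subgroup.subset_normalClosure (Subgroup.mem_subgroupOf.2 hz), rfl⟩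
  have hNA : N ≤ Nz A := fun y hy => CF.mem_Nz.2 (Subgroup.eq_of_le_of_card_ge (by
    rintro _ ⟨a, ha, rfl⟩
    rw [hA] at ha ⊢
    obtain ⟨a', ha', rfl⟩ := ha
    exact ⟨⟨y, hy⟩ * a' * ⟨y, hy⟩⁻¹, Subgroup.normalClosure_normal.conj_mem a' ha' _, rfl⟩)
    (Fusion.card_cj _ _).ge)
  -- the centre of `J`
  set B := omZ 2 J with hB'
  have hBN : (B.subgroupOf N).Normal := ⟨fun b hb y => by
    have hy : cj (y : G) J = J := CF.mem_Nz.1 (hN.le y.2)
    have hb' : (b : G) ∈ B := Subgroup.mem_subgroupOf.1 hb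
    have e : cj (y : G) B = B := by
      show (Cfsg.omegaOne 2 _).map _ = _
      rw [LAE62.Baumann.map_omegaOne (MulAut.conj (y : G)).injective,
        Modules.map_inf_centralizer (MulAut.conj (y : G)).injective]
      show Cfsg.omegaOne 2 (cj (y : G) J ⊓ Subgroup.centralizer (cj (y : G) J : Set G)) = _
      rw [hy]
    exact Subgroup.mem_subgroupOf.2 (e.le (conj_mem_cj.2 hb'))⟩
  have hAB : A ≤ B := by
    rw [hA, Subgroup.map_le_iff_le_comap]
    refine Subgroup.normalClosure_le_normal (N := B.subgroupOf N) fun z hz => ?_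
    have hz' := Subgroup.mem_subgroupOf.1 hz
    exact Subgroup.subset_closure ⟨⟨omZ_le_thompson _ hz', Subgroup.mem_centralizer_iff.2
      fun y hy => mem_omZ_comm hz' (hJS hy)⟩, CF.pow_eq_one_of_mem_omZ (P := (S : Subgroup G)) _ hz'⟩
  have hAJ : A ≤ J := hAB.trans (CF.omZ_le 2 J)
  have hAS : A ≤ (S : Subgroup G) := hAJ.trans hJS
  have hAA : A ≤ Subgroup.centralizer (A : Set G) := fun a ha =>
    Subgroup.mem_centralizer_iff.2 fun b hb => mem_omZ_comm (hAB ha) (hAJ hb)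
  have hA2 : ∀ a ∈ A, a ^ 2 = 1 := fun a ha =>
    CF.pow_eq_one_of_mem_omZ (P := J) a (hAB ha)
  have hAe : Cfsg.IsElementaryAbelian 2 A :=
    ⟨⟨⟨fun a b => Subtype.ext (Subgroup.mem_centralizer_iff.1 (hAA b.2) a a.2)⟩⟩, hA2⟩
  -- `Ĵ(S)` centralizes `A`
  have hAC : A ≤ Subgroup.centralizer (jH (S : Subgroup G) : Set G) := by
    conv_lhs => rw [hA]
    rw [Subgroup.map_le_iff_le_comap]
    refine (Subgroup.closure_le _).2 fun q hq => ?_
    obtain ⟨z, hz, hc⟩ := Group.mem_conjugatesOfSet_iff.1 hq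
    obtain ⟨n, rfl⟩ := isConj_iff.1 hc
    refine Subgroup.mem_centralizer_iff.2 fun j hj => ?_
    exact commute_conj hB hfree hSec S hSN hNA hAS hAA (Subgroup.mem_subgroupOf.1 hz)
      (hzA (Subgroup.mem_subgroupOf.1 hz)) n.2 hj
  have hAW : A ≤ wSub (S : Subgroup G) := fun a ha => mem_wSub (thompson_le_jH _ (hAJ ha))
    (fun j hj => Subgroup.mem_centralizer_singleton_iff.2
      (Subgroup.mem_centralizer_iff.1 (hAC ha) j hj)) (hA2 a ha)
  -- every step normalizes `A`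
  have hstep : CF.FusStep (Fam ({wFun, OffThm.jeFun} :
      Set (∀ (Q : Type u) [Group Q], Subgroup Q)) G) ⊤ (S : Subgroup G) ⊆ Nz A := by
    rintro x ⟨W, ⟨W0, hW0, rfl⟩, -, hx⟩
    replace hx : x ∈ Nz (Cfsg.inducedFunctor W0 (S : Subgroup G)) := hx
    show x ∈ Nz A
    rcases hW0 with rfl | rfl
    · rw [induced_wFun] at hx
      set W := wSub (S : Subgroup G) with hW
      have hSW : (S : Subgroup G) ≤ Nz W := fun s hs => by
        rw [CF.mem_Nz, hW, cj, ← wSub_map (MulAut.conj s).injective]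
        exact congrArg _ (cj_eq_of_mem (Subgroup.le_normalizer hs))
      set C := Subgroup.centralizer (W : Set G)
      have hWC : Nz W ≤ Nz C := fun y hy => CF.mem_Nz.2 (Subgroup.eq_of_le_of_card_ge (by
        rintro _ ⟨c, hc, rfl⟩
        refine Subgroup.mem_centralizer_iff.2 fun w hw => ?_
        have hw' : y⁻¹ * w * y ∈ W := by
          simpa using (Subgroup.mem_normalizer_iff.1 (inv_mem hy) w).1 hw
        have := Subgroup.mem_centralizer_iff.1 hc _ hw'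
        show w * (y * c * y⁻¹) = y * c * y⁻¹ * w
        calc w * (y * c * y⁻¹) = y * (y⁻¹ * w * y * c) * y⁻¹ := by group
          _ = y * (c * (y⁻¹ * w * y)) * y⁻¹ := by rw [this]
          _ = _ := by group) (Fusion.card_cj _ _).ge)
      have hJC : J ≤ C := fun y hy => Subgroup.mem_centralizer_iff.2 fun w hw =>
        (mem_omZ_comm (S := jH (S : Subgroup G)) hw (thompson_le_jH _ hy)).symm
      obtain ⟨c, hc, y, -, hy, rfl⟩ := (isSyl_restrict S hSW).frattini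
        (Subgroup.centralizer_le_normalizer _) hWC hx
      refine mul_mem ?_ (hNA (hN.ge ?_))
      · exact (Subgroup.centralizer_le_normalizer _) (Subgroup.centralizer_le hAW hc)
      · rw [CF.mem_Nz, hJ, ← Modules.thompsonSubgroupOf_eq_of_le (inf_le_left :
          (S : Subgroup G) ⊓ C ≤ _) (le_inf hJS hJC), cj,
          Modules.map_thompsonSubgroupOf (MulAut.conj y).injective]
        exact congrArg _ (cj_eq_of_mem hy)
    · rw [OffThm.induced_jeFun] at hx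
      exact hNA (hN.ge hx)
  have hfus := fusIn_wj hB hSp hIn hfree hSec S
  have hkey : ∀ (D : Set G) (g : G), D ⊆ (S : Subgroup G) →
      (fun a => g * a * g⁻¹) '' D ⊆ (S : Subgroup G) →
      ∃ y ∈ Nz A, ∀ a ∈ D, g * a * g⁻¹ = y * a * y⁻¹ := fun D g hD hg => by
    obtain ⟨y, hy, he⟩ := CF.Reach.of_subgroup hstep (hfus (Subgroup.closure D)
      ((Subgroup.closure_le _).2 hD) g (Subgroup.mem_top g) (CF.cj_closure_le hg))
    exact ⟨y, hy, fun a ha => (he a (Subgroup.subset_closure ha)).symm⟩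
  refine ⟨hAS, hAe, ⟨hAS, fun x hx g hg => ?_⟩, S, hAS, fun D hD => ⟨hD, fun g hg => hkey D g hD hg⟩⟩
  obtain ⟨y, hy, he⟩ := hkey {x} g (Set.singleton_subset_iff.2 (hAS hx)) (by
    rintro _ ⟨_, rfl, rfl⟩; exact hg)
  rw [he x rfl]
  exact (Subgroup.mem_normalizer_iff.1 hy x).1 hx

end Cfsg.Agent.TwoFact
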