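import Cfsg.Prelude.Def_LocalEven
import Cfsg.Agent.OffThm.Factor
import Cfsg.Agent.Modules.ElemAb
import Cfsg.Agent.LAE62.BaumannBasic

/-!
E-subgroups of a group and the subgroup `Ĵ` generated by those containing the Thompson subgroup,
described inside the ambient group.
-/

set_option autoImplicit false
set_option linter.unusedSectionVars false
set_option linter.style.haveILetI false

namespace Cfsg.Agent.TwoFact

open Cfsg.Agent.CF (Nz)
open Cfsg.Agent.Fusion (cj)

universe u

variable {G : Type u} [Group G]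

/-- The condition defining E-groups, for `V` against the subgroups of `U`. -/
def EGood (V U : Subgroup G) : Prop :=
  ∀ R ≤ U, ⁅R, R⁆ ≤ Subgroup.centralizer (V : Set G) →
    (∀ r ∈ R, r ^ 2 ∈ Subgroup.centralizer (V : Set G)) →
    ¬ R ≤ Subgroup.centralizer (V : Set G) →
      (Nat.card V) ^ 2 * (Nat.card ↥(R ⊓ Subgroup.centralizer (V : Set G))) ^ 3 >
          (Nat.card R) ^ 3 * (Nat.card ↥(V ⊓ Subgroup.centralizer (R : Set G))) ^ 2 ∧
        Nat.card ↥⁅V, R⁆ * Nat.card ↥(R ⊓ Subgroup.centralizer (V : Set G)) > Nat.card R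

theorem EGood.mono {V U U' : Subgroup G} (h : EGood V U) (hle : U' ≤ U) : EGood V U' :=
  fun R hR => h R (hR.trans hle)

/-- `U` is an E-group. -/
def EGrp (U : Subgroup G) : Prop :=
  ∀ V ≤ U, U ≤ Nz V → Cfsg.IsElementaryAbelian 2 V → EGood V U →
    U ≤ Subgroup.centralizer (V : Set G)

section Map

variable {H : Type u} [Group H] {f : G →* H}

theorem map_le_centralizer_map (hf : Function.Injective f) {A V : Subgroup G} :
    A.map f ≤ Subgroup.centralizer (V.map f : Set H) ↔ A ≤ Subgroup.centralizer (V : Set G) := by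
  constructor
  · intro h a ha v hv
    exact hf (by
      rw [map_mul, map_mul]
      exact Subgroup.mem_centralizer_iff.1 (h ⟨a, ha, rfl⟩) _ ⟨v, hv, rfl⟩)
  · rintro h _ ⟨a, ha, rfl⟩
    rw [Subgroup.mem_centralizer_iff]
    rintro _ ⟨v, hv, rfl⟩
    rw [← map_mul, ← map_mul, Subgroup.mem_centralizer_iff.1 (h ha) v hv]

theorem map_mem_centralizer (hf : Function.Injective f) {V : Subgroup G} {a : G} :
    f a ∈ Subgroup.centralizer (V.map f : Set H) ↔ a ∈ Subgroup.centralizer (V : Set G) := by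
  rw [← Subgroup.zpowers_le, ← Subgroup.zpowers_le, ← MonoidHom.map_zpowers,
    map_le_centralizer_map hf]

theorem map_le_Nz_map (hf : Function.Injective f) {A V : Subgroup G} :
    A.map f ≤ Nz (V.map f) ↔ A ≤ Nz V := by
  constructor
  · intro h a ha
    refine Subgroup.mem_normalizer_iff.2 fun v => ?_
    have := Subgroup.mem_normalizer_iff.1 (h ⟨a, ha, rfl⟩) (f v)
    rw [← map_inv, ← map_mul, ← map_mul, Subgroup.mem_map_iff_mem hf,
      Subgroup.mem_map_iff_mem hf] at this
    exact this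
  · exact fun h => (Subgroup.map_mono h).trans (Subgroup.le_normalizer_map f)

theorem eGood_map (hf : Function.Injective f) {V U : Subgroup G} :
    EGood (V.map f) (U.map f) ↔ EGood V U := by
  have hc : ∀ X Y : Subgroup G, X.map f ⊓ Subgroup.centralizer (Y.map f : Set H) =
      (X ⊓ Subgroup.centralizer (Y : Set G)).map f := fun X Y => by
    ext y
    constructor
    · rintro ⟨⟨x, hx, rfl⟩, hy⟩
      exact ⟨x, ⟨hx, (map_mem_centralizer hf).1 hy⟩, rfl⟩
    · rintro ⟨x, ⟨hx, hy⟩, rfl⟩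
      exact ⟨⟨x, hx, rfl⟩, (map_mem_centralizer hf).2 hy⟩
  have hcard : ∀ X : Subgroup G, Nat.card (X.map f) = Nat.card X := fun X =>
    Subgroup.card_map_of_injective hf
  have key : ∀ R : Subgroup G,
      (⁅R.map f, R.map f⁆ ≤ Subgroup.centralizer (V.map f : Set H) ↔
        ⁅R, R⁆ ≤ Subgroup.centralizer (V : Set G)) ∧
      ((∀ r ∈ R.map f, r ^ 2 ∈ Subgroup.centralizer (V.map f : Set H)) ↔
        ∀ r ∈ R, r ^ 2 ∈ Subgroup.centralizer (V : Set G)) := fun R => by
    refine ⟨by rw [← Subgroup.map_commutator, map_le_centralizer_map hf], ⟨fun h r hr => ?_, ?_⟩⟩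
    · exact (map_mem_centralizer hf).1 (by rw [map_pow]; exact h _ ⟨r, hr, rfl⟩)
    · rintro h _ ⟨r, hr, rfl⟩
      rw [← map_pow]
      exact (map_mem_centralizer hf).2 (h r hr)
  constructor
  · intro h R hR h1 h2 h3
    have := h (R.map f) (Subgroup.map_mono hR) ((key R).1.2 h1) ((key R).2.2 h2)
      fun h' => h3 ((map_le_centralizer_map hf).1 h')
    simpa only [hc, hcard, ← Subgroup.map_commutator] using this
  · intro h R' hR' h1 h2 h3
    obtain ⟨R, hR, rfl⟩ : ∃ R ≤ U, R.map f = R' := ⟨(R'.comap f) ⊓ U, inf_le_right, by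
      ext y
      constructor
      · rintro ⟨x, ⟨hx, -⟩, rfl⟩; exact hx
      · intro hy
        obtain ⟨x, hx, rfl⟩ := hR' hy
        exact ⟨x, ⟨hy, hx⟩, rfl⟩⟩
    have := h R hR ((key R).1.1 h1) ((key R).2.1 h2) fun h' => h3 ((map_le_centralizer_map hf).2 h')
    simpa only [hc, hcard, ← Subgroup.map_commutator] using this

theorem eGrp_map (hf : Function.Injective f) {U : Subgroup G} : EGrp (U.map f) ↔ EGrp U := by
  constructor
  · intro h V hV hN hVe hg
    exact (map_le_centralizer_map hf).1 (h (V.map f) (Subgroup.map_mono hV)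
      ((map_le_Nz_map hf).2 hN) (Modules.elemAb_map f hVe) ((eGood_map hf).2 hg))
  · intro h V' hV' hN hVe hg
    obtain ⟨V, hV, rfl⟩ : ∃ V ≤ U, V.map f = V' := ⟨(V'.comap f) ⊓ U, inf_le_right, by
      ext y
      constructor
      · rintro ⟨x, ⟨hx, -⟩, rfl⟩; exact hx
      · intro hy
        obtain ⟨x, hx, rfl⟩ := hV' hy
        exact ⟨x, ⟨hy, hx⟩, rfl⟩⟩
    exact (map_le_centralizer_map hf).2 (h V hV ((map_le_Nz_map hf).1 hN)
      ((Modules.elemAb_map_iff hf).1 hVe) ((eGood_map hf).1 hg))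

end Map

theorem isEGroup_iff (T : Type u) [Group T] : Cfsg.IsEGroup T ↔ EGrp (⊤ : Subgroup T) := by
  constructor
  · intro h V _ hN hVe hg
    rw [← Subgroup.le_centralizer_iff]
    refine (h V (Subgroup.normalizer_eq_top_iff.1 (top_le_iff.1 hN)) hVe
      fun R h1 h2 h3 => hg R le_top h1 h2 h3).trans ?_
    rw [Subgroup.coe_top, Subgroup.centralizer_univ]
  · intro h V hV hVe hg
    have := h V le_top (Subgroup.normalizer_eq_top_iff.2 hV).ge hVe fun R _ => hg R
    rw [← Subgroup.le_centralizer_iff, Subgroup.coe_top, Subgroup.centralizer_univ] at this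
    exact this

theorem isEGroup_coe_iff (U : Subgroup G) : Cfsg.IsEGroup U ↔ EGrp U := by
  rw [isEGroup_iff, ← eGrp_map (f := U.subtype) U.subtype_injective, ← MonoidHom.range_eq_map,
    U.range_subtype]

/-- The E-subgroups of `S` above the Thompson subgroup generate `Ĵ(S)`. -/
def eSet (S : Subgroup G) : Set (Subgroup G) :=
  {U | U ≤ S ∧ EGrp U ∧ Cfsg.thompsonSubgroupOf 2 S ≤ U}

/-- `Ĵ(S)` inside the ambient group. -/
def jH (S : Subgroup G) : Subgroup G := sSup (eSet S)

theorem jH_le (S : Subgroup G) : jH S ≤ S := sSup_le fun _ h => h.1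

theorem eSet_map {H : Type u} [Group H] {f : G →* H} (hf : Function.Injective f) (S : Subgroup G) :
    eSet (S.map f) = (fun U => U.map f) '' eSet S := by
  ext U'
  constructor
  · rintro ⟨h1, h2, h3⟩
    have hU : (U'.comap f ⊓ S).map f = U' := by
      ext y
      constructor
      · rintro ⟨x, ⟨hx, -⟩, rfl⟩; exact hx
      · intro hy
        obtain ⟨x, hx, rfl⟩ := h1 hy
        exact ⟨x, ⟨hy, hx⟩, rfl⟩
    refine ⟨U'.comap f ⊓ S, ⟨inf_le_right, (eGrp_map hf).1 (hU.symm ▸ h2), ?_⟩, hU⟩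
    rw [← Subgroup.map_le_map_iff_of_injective hf, hU, Modules.map_thompsonSubgroupOf hf]
    exact h3
  · rintro ⟨U, ⟨h1, h2, h3⟩, rfl⟩
    refine ⟨Subgroup.map_mono h1, (eGrp_map hf).2 h2, ?_⟩
    rw [← Modules.map_thompsonSubgroupOf hf]
    exact Subgroup.map_mono h3

theorem jH_map {H : Type u} [Group H] {f : G →* H} (hf : Function.Injective f) (S : Subgroup G) :
    jH (S.map f) = (jH S).map f := by
  rw [jH, jH, eSet_map hf, sSup_image, sSup_eq_iSup, Subgroup.map_iSup]
  simp only [Subgroup.map_iSup]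

theorem jHat_map_eq (S : Subgroup G) : (Cfsg.jHat ↥S).map S.subtype = jH S := by
  conv_rhs => rw [← S.range_subtype, MonoidHom.range_eq_map, jH_map S.subtype_injective]
  congr 1
  show sSup _ = sSup _
  congr 1
  ext U
  simp only [eSet, Set.mem_setOf_eq, isEGroup_coe_iff, le_top, true_and]
  rw [Modules.thompsonSubgroupOf_top]

/-- `Ω₁Z(Ĵ(S))`. -/
def wSub (S : Subgroup G) : Subgroup G :=
  Cfsg.omegaOne 2 (jH S ⊓ Subgroup.centralizer (jH S : Set G))

theorem wSub_map {H : Type u} [Group H] {f : G →* H} (hf : Function.Injective f) (S : Subgroup G) :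
    wSub (S.map f) = (wSub S).map f := by
  rw [wSub, wSub, LAE62.Baumann.map_omegaOne hf, jH_map hf, Modules.map_inf_centralizer hf]

end Cfsg.Agent.TwoFact
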