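import Cfsg.Agent.TwoFact.Spread

/-!
An element spreading an elementary subgroup that centralizes every normal subgroup failing to
generate the group with a Sylow 2-subgroup.
-/

set_option autoImplicit false
set_option linter.unusedSectionVars false
set_option linter.style.haveILetI false

namespace Cfsg.Agent.TwoFact

open Cfsg.Agent.CF (Nz IsSyl)
open Cfsg.Agent.Fusion (cj mem_cj conj_mem_cj card_cj)
open Cfsg.Agent.SubnormalLib (IsMinNormal)

universe u

variable {X : Type u} [Group X] [Finite X]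

/-- A spreading element makes both 2-cores avoid the elementary subgroup. -/
theorem inf_core_eq_bot {A : Subgroup X} (hA : ∀ a ∈ A, a * a = 1) {x : X}
    (hx : ∀ u ∈ A, u ≠ 1 → NonTwo (spreadEl u x)) (y : X) (hy : y = x ∨ y = x⁻¹) :
    A ⊓ (Cfsg.pCore 2 ↥(A ⊔ cj y A)).map (A ⊔ cj y A).subtype = ⊥ := by
  refine eq_bot_iff.2 fun a ha' => Subgroup.mem_bot.2 ?_
  by_contra ha1
  set L := A ⊔ cj y A with hL
  obtain ⟨ha, l, hl, hla⟩ := ha'
  set b := y * a * y⁻¹ with hb
  have hbL : b ∈ L := (le_sup_right : cj y A ≤ L) (conj_mem_cj.2 ha)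
  have hbb : b * b = 1 := by
    rw [hb, show y * a * y⁻¹ * (y * a * y⁻¹) = y * (a * a) * y⁻¹ by group, hA a ha, mul_one,
      mul_inv_cancel]
  have hbi : b⁻¹ = b := inv_eq_of_mul_eq_one_right hbb
  have h1 : l * (⟨b, hbL⟩ * l * ⟨b, hbL⟩⁻¹) ∈ Cfsg.pCore 2 L :=
    mul_mem hl ((Cores.pCore_normal_inst (p := 2) L).conj_mem l hl ⟨b, hbL⟩)
  obtain ⟨k, hk⟩ := (Cores.pCore_isPGroup (p := 2) (G := L)) ⟨_, h1⟩
  have hk' : (a * (b * a * b⁻¹)) ^ 2 ^ k = 1 := by
    have := congrArg L.subtype (congrArg Subtype.val hk)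
    simp only [SubgroupClass.coe_pow, map_pow, map_mul, map_inv] at this
    rw [hla] at this
    simpa using this
  rw [hbi, show a * (b * a * b) = (a * b) ^ 2 by rw [sq]; group, ← pow_mul, ← pow_succ'] at hk'
  refine hx a ha ha1 (k + 1) ?_
  rcases hy with h | h
  · have hai : a⁻¹ = a := inv_eq_of_mul_eq_one_right (hA a ha)
    have e : spreadEl a x = x⁻¹ * a * (a * b) * (x⁻¹ * a)⁻¹ := by
      rw [spreadEl, hb, h, mul_inv_rev, hai, inv_inv,
        show x⁻¹ * a * (a * (x * a * x⁻¹)) * (a * x) = x⁻¹ * (a * a) * x * a * x⁻¹ * a * x by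
          group, hA a ha]
      group
    rw [e, conj_pow, hk', mul_one, mul_inv_cancel]
  · have e : spreadEl a x = a * b := by rw [spreadEl, hb, h, inv_inv]
    rw [e, hk']

theorem isPGroup_quot_of_sup_eq_top [Fact (Nat.Prime 2)] (S : Sylow 2 X) {M : Subgroup X}
    [M.Normal] (h : M ⊔ (S : Subgroup X) = ⊤) : IsPGroup 2 (X ⧸ M) := by
  intro q
  obtain ⟨g, rfl⟩ := QuotientGroup.mk'_surjective M q
  obtain ⟨m, hm, s, hs, rfl⟩ := Subgroup.mem_sup_of_normal_left.1 (h.ge (Subgroup.mem_top g))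
  obtain ⟨k, hk⟩ := S.2 ⟨s, hs⟩
  refine ⟨k, ?_⟩
  have hk' : s ^ 2 ^ k = 1 := congrArg Subtype.val hk
  rw [map_mul, (QuotientGroup.eq_one_iff (N := M) m).2 hm |> fun h => (show
    QuotientGroup.mk' M m = 1 from h), one_mul, ← map_pow, hk', map_one]

theorem sup_eq_top_of_isPGroup [Fact (Nat.Prime 2)] (S : Sylow 2 X) {M : Subgroup X}
    [M.Normal] (h : IsPGroup 2 (X ⧸ M)) : M ⊔ (S : Subgroup X) = ⊤ := by
  have hs := QuotientGroup.mk'_surjective M
  have e : (S.mapSurjective hs : Subgroup (X ⧸ M)) = ⊤ :=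
    ((S.mapSurjective hs).is_maximal' (IsPGroup.to_subgroup h ⊤) le_top).symm
  have e' : (S : Subgroup X).map (QuotientGroup.mk' M) = ⊤ := e
  have := congrArg (Subgroup.comap (QuotientGroup.mk' M)) e'
  rwa [Subgroup.comap_map_eq, QuotientGroup.ker_mk', Subgroup.comap_top, sup_comm] at this

theorem eq_bot_of_conj_le [Fact (Nat.Prime 2)] (hO : Cfsg.pCore 2 X = ⊥) {A P : Subgroup X}
    (hP : IsPGroup 2 P) (h : ∀ g : X, cj g A ≤ P) : A = ⊥ := by
  have h1 : Subgroup.normalClosure (A : Set X) ≤ P := by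
    refine (Subgroup.closure_le _).2 fun w hw => ?_
    obtain ⟨a, ha, hc⟩ := Group.mem_conjugatesOfSet_iff.1 hw
    obtain ⟨g, rfl⟩ := isConj_iff.1 hc
    exact h g (conj_mem_cj.2 ha)
  exact eq_bot_iff.2 (Subgroup.le_normalClosure.trans ((Cores.le_pCore
    Subgroup.normalClosure_normal (hP.to_le h1)).trans hO.le))

/-- The spreading element. -/
theorem exists_spread_top [Fact (Nat.Prime 2)] (hSp : SpreadFact.{u}) (hIn : InnerFact.{u})
    (hO : Cfsg.pCore 2 X = ⊥) (hS3 : ¬ Cfsg.Involves (Equiv.Perm (Fin 3)) X) (hsec : SecK X)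
    (S : Sylow 2 X) {A : Subgroup X} (hAS : A ≤ (S : Subgroup X)) (hA : ∀ a ∈ A, a * a = 1)
    (hmin : ∀ M : Subgroup X, M.Normal → M ⊔ (S : Subgroup X) ≠ ⊤ →
      A ≤ Subgroup.centralizer (M : Set X)) :
    ∃ x : X, ∀ u ∈ A, u ≠ 1 → NonTwo (spreadEl u x) := by
  classical
  rcases eq_or_ne A ⊥ with rfl | hAne
  · exact ⟨1, fun u hu h => absurd (Subgroup.mem_bot.1 hu) h⟩
  have htop : ¬ A ≤ Subgroup.centralizer ((⊤ : Subgroup X) : Set X) := fun h => hAne
    (eq_bot_of_conj_le hO (S.2) fun g => by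
      rintro _ ⟨a, ha, rfl⟩
      have := Subgroup.mem_centralizer_iff.1 (h ha) g (Subgroup.mem_top g)
      show g * a * g⁻¹ ∈ _
      rw [this, mul_inv_cancel_right]
      exact hAS ha)
  obtain ⟨R, hRn, hRmin⟩ : ∃ R : Subgroup X,
      (R.Normal ∧ ¬ A ≤ Subgroup.centralizer (R : Set X)) ∧
      ∀ M : Subgroup X, M.Normal → ¬ A ≤ Subgroup.centralizer (M : Set X) → M ≤ R → M = R := by
    obtain ⟨R, -, hR⟩ := Finite.exists_le_minimal (a := (⊤ : Subgroup X))
      (p := fun M : Subgroup X => M.Normal ∧ ¬ A ≤ Subgroup.centralizer (M : Set X))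
      ⟨inferInstance, htop⟩
    exact ⟨R, hR.1, fun M h1 h2 h3 => le_antisymm h3 (hR.2 ⟨h1, h2⟩ h3)⟩
  obtain ⟨hRn, hRA⟩ := hRn
  haveI := hRn
  have hRS : R ⊔ (S : Subgroup X) = ⊤ := by
    by_contra h
    exact hRA (hmin R hRn h)
  -- elements centralizing `R` are trivial
  have hcR : ∀ u ∈ A, u ∈ Subgroup.centralizer (R : Set X) → u = 1 := fun u hu huR => by
    have : Subgroup.zpowers u = ⊥ := eq_bot_of_conj_le hO S.2 fun g => by
      rintro _ ⟨z, hz, rfl⟩
      obtain ⟨s, hs, r, hr, rfl⟩ := Subgroup.mem_sup_of_normal_right.1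
        ((show (S : Subgroup X) ⊔ R = ⊤ by rw [sup_comm]; exact hRS).ge (Subgroup.mem_top g))
      obtain ⟨i, rfl⟩ := Subgroup.mem_zpowers_iff.1 hz
      have hc : r * u ^ i = u ^ i * r :=
        Subgroup.mem_centralizer_iff.1 (Subgroup.zpow_mem _ huR i) r hr
      show s * r * u ^ i * (s * r)⁻¹ ∈ _
      rw [show s * r * u ^ i * (s * r)⁻¹ = s * (r * u ^ i) * r⁻¹ * s⁻¹ by group, hc,
        show s * (u ^ i * r) * r⁻¹ * s⁻¹ = s * u ^ i * s⁻¹ by group]
      exact (S : Subgroup X).mul_mem ((S : Subgroup X).mul_mem hs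
        ((S : Subgroup X).zpow_mem (hAS hu) i)) ((S : Subgroup X).inv_mem hs)
    exact Subgroup.mem_bot.1 (this.le (Subgroup.mem_zpowers u))
  set W := Subgroup.normalClosure (A : Set X) with hW
  haveI hWn : W.Normal := Subgroup.normalClosure_normal
  have hWA : ¬ A ≤ Subgroup.centralizer (W : Set X) := fun h => hAne (by
    have hAW : A ≤ W := Subgroup.le_normalClosure
    have hWW : W ≤ Subgroup.centralizer (W : Set X) :=
      Subgroup.normalClosure_le_normal h
    have h2 : IsPGroup 2 W := by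
      intro w
      refine ⟨1, Subtype.ext ?_⟩
      show (w : X) ^ 2 ^ 1 = 1
      rw [pow_one]
      obtain ⟨w, hw⟩ := w
      induction hw using Subgroup.closure_induction with
      | mem z hz =>
        obtain ⟨a, ha, hc⟩ := Group.mem_conjugatesOfSet_iff.1 hz
        obtain ⟨g, rfl⟩ := isConj_iff.1 hc
        rw [conj_pow, sq, hA a ha, mul_one, mul_inv_cancel]
      | one => exact one_pow _
      | mul a b ha hb iha ihb =>
        have hab : Commute a b := Subgroup.mem_centralizer_iff.1 (hWW hb) a ha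
        rw [hab.mul_pow, iha, ihb, one_mul]
      | inv a _ iha => rw [inv_pow, iha, inv_one]
    exact eq_bot_iff.2 (hAW.trans ((Cores.le_pCore hWn h2).trans hO.le)))
  have hWS : W ⊔ (S : Subgroup X) = ⊤ := by
    by_contra h
    exact hWA (hmin W hWn h)
  have hRW : R ≤ W := by
    haveI hn : (R ⊓ W).Normal := Subgroup.normal_inf_normal R W
    by_contra hcon
    have hcen : A ≤ Subgroup.centralizer ((R ⊓ W : Subgroup X) : Set X) := by
      by_contra h
      exact hcon (inf_eq_left.1 (hRmin _ hn h inf_le_left))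
    have h2 : IsPGroup 2 (X ⧸ (R ⊓ W)) := by
      intro q
      obtain ⟨g, rfl⟩ := QuotientGroup.mk'_surjective _ q
      obtain ⟨i, hi⟩ := isPGroup_quot_of_sup_eq_top S hRS (g : X ⧸ R)
      obtain ⟨j, hj⟩ := isPGroup_quot_of_sup_eq_top S hWS (g : X ⧸ W)
      refine ⟨i + j, ?_⟩
      rw [← map_pow]
      refine (QuotientGroup.eq_one_iff _).2 ⟨?_, ?_⟩
      · rw [← QuotientGroup.mk_pow, QuotientGroup.eq_one_iff] at hi
        rw [pow_add, pow_mul]; exact R.pow_mem hi _
      · rw [← QuotientGroup.mk_pow, QuotientGroup.eq_one_iff] at hj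
        rw [add_comm, pow_add, pow_mul]; exact W.pow_mem hj _
    have h3 := sup_eq_top_of_isPGroup S h2
    refine hAne (eq_bot_of_conj_le hO S.2 fun g => ?_)
    rintro _ ⟨a, ha, rfl⟩
    obtain ⟨s, hs, r, hr, rfl⟩ := Subgroup.mem_sup_of_normal_right.1
      ((show (S : Subgroup X) ⊔ (R ⊓ W) = ⊤ by rw [sup_comm]; exact h3).ge (Subgroup.mem_top g))
    have hc := Subgroup.mem_centralizer_iff.1 (hcen ha) r hr
    show s * r * a * (s * r)⁻¹ ∈ _
    rw [show s * r * a * (s * r)⁻¹ = s * (r * a) * r⁻¹ * s⁻¹ by group, hc,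
      show s * (a * r) * r⁻¹ * s⁻¹ = s * a * s⁻¹ by group]
    exact (S : Subgroup X).mul_mem ((S : Subgroup X).mul_mem hs (hAS ha))
      ((S : Subgroup X).inv_mem hs)
  have hRne : R ≠ ⊥ := fun h => hRA (by
    rw [h]
    exact fun a _ => Subgroup.mem_centralizer_iff.2 fun z hz => by
      rw [Subgroup.mem_bot.1 hz, one_mul, mul_one])
  obtain ⟨Z, ⟨hZn, hZR⟩, hZmax⟩ : ∃ Z : Subgroup X, (Z.Normal ∧ Z < R) ∧
      ∀ M : Subgroup X, M.Normal → M < R → Z ≤ M → M = Z := by
    obtain ⟨Z, -, hZ⟩ := Finite.exists_le_maximal (a := (⊥ : Subgroup X))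
      (p := fun M : Subgroup X => M.Normal ∧ M < R) ⟨inferInstance, hRne.bot_lt⟩
    exact ⟨Z, hZ.1, fun M h1 h2 h3 => le_antisymm (hZ.2 ⟨h1, h2⟩ h3) h3⟩
  haveI := hZn
  have hAZ : A ≤ Subgroup.centralizer (Z : Set X) := by
    by_contra h
    exact hZR.ne (hRmin Z hZn h hZR.le)
  have hRZ : R ≤ Subgroup.centralizer (Z : Set X) :=
    hRW.trans (Subgroup.normalClosure_le_normal hAZ)
  have hZ1 : ∀ z ∈ Z, z * z = 1 → z = 1 := fun z hz hz2 => by
    let Z2 : Subgroup X :=
      { carrier := {w | w ∈ Z ∧ w * w = 1}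
        one_mem' := ⟨Z.one_mem, one_mul 1⟩
        mul_mem' := fun {a b} ha hb => ⟨Z.mul_mem ha.1 hb.1, by
          have hab : Commute a b := Subgroup.mem_centralizer_iff.1 (hRZ (hZR.le hb.1)) a ha.1
          rw [← sq, hab.mul_pow, sq, sq, ha.2, hb.2, one_mul]⟩
        inv_mem' := fun {a} ha => ⟨Z.inv_mem ha.1, by rw [← mul_inv_rev, ha.2, inv_one]⟩ }
    have hn : Z2.Normal := ⟨fun w hw g => ⟨hZn.conj_mem w hw.1 g, by
      rw [show g * w * g⁻¹ * (g * w * g⁻¹) = g * (w * w) * g⁻¹ by group, hw.2, mul_one,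
        mul_inv_cancel]⟩⟩
    have h2 : IsPGroup 2 Z2 := fun w => ⟨1, Subtype.ext (by
      show (w : X) ^ 2 ^ 1 = 1; rw [pow_one, sq]; exact w.2.2)⟩
    exact Subgroup.mem_bot.1 (((Cores.le_pCore hn h2).trans hO.le) (show z ∈ Z2 from ⟨hz, hz2⟩))
  set mk := QuotientGroup.mk' Z with hmk
  have hmks : Function.Surjective mk := QuotientGroup.mk'_surjective Z
  set N := R.map mk with hN
  have hNn : N.Normal := hRn.map mk hmks
  have hNmin : IsMinNormal N := by
    refine ⟨hNn, fun h => hZR.not_ge ?_, fun K hK hKN => ?_⟩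
    · rwa [hN, Subgroup.map_eq_bot_iff, hmk, QuotientGroup.ker_mk'] at h
    · have hle : K.comap mk ≤ R := by
        refine (Subgroup.comap_mono hKN).trans ?_
        rw [hN, Subgroup.comap_map_eq, hmk, QuotientGroup.ker_mk', sup_eq_left.2 hZR.le]
      have hKe : (K.comap mk).map mk = K := Subgroup.map_comap_eq_self_of_surjective hmks K
      rcases eq_or_lt_of_le hle with h | h
      · exact Or.inr (by rw [← hKe, h])
      · have := hZmax _ (hK.comap mk) h (by
          intro z hz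
          show mk z ∈ K
          rw [show mk z = 1 from (QuotientGroup.eq_one_iff z).2 hz]
          exact K.one_mem)
        exact Or.inl (by rw [← hKe, this, Subgroup.map_eq_bot_iff, hmk, QuotientGroup.ker_mk'])
  have hA' : ∀ a ∈ A.map mk, a * a = 1 := by
    rintro _ ⟨a, ha, rfl⟩
    rw [← map_mul, hA a ha, map_one]
  have hfaith : ∀ u ∈ A, mk u ∈ Subgroup.centralizer (N : Set (X ⧸ Z)) → u = 1 := by
    intro u hu huN
    refine hcR u hu (Subgroup.mem_centralizer_iff.2 fun r hr => ?_)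
    set z := r * u * r⁻¹ * u⁻¹ with hz
    have hzZ : z ∈ Z := by
      rw [← QuotientGroup.eq_one_iff, show (z : X ⧸ Z) = mk z from rfl, hz, map_mul, map_mul,
        map_mul, map_inv, map_inv, Subgroup.mem_centralizer_iff.1 huN (mk r) ⟨r, hr, rfl⟩,
        mul_inv_cancel_right, mul_inv_cancel]
    have hui : u⁻¹ = u := inv_eq_of_mul_eq_one_right (hA u hu)
    have hc : z * u = u * z := Subgroup.mem_centralizer_iff.1 (hAZ hu) z hzZ
    have h1 : z = 1 := by
      refine hZ1 z hzZ ?_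
      have h2 : u * z * u = z⁻¹ := by
        rw [hz, mul_inv_rev, mul_inv_rev, mul_inv_rev, inv_inv, inv_inv, hui]
        rw [show u * (r * u * r⁻¹ * u) * u = u * r * u * r⁻¹ * (u * u) by group, hA u hu]
        group
      rw [← hc, mul_assoc, hA u hu, mul_one] at h2
      exact mul_eq_one_iff_eq_inv.2 h2
    rw [hz] at h1
    calc r * u = r * u * r⁻¹ * u⁻¹ * (u * r) := by group
      _ = u * r := by rw [h1, one_mul]
  obtain ⟨x, -, hx⟩ : ∃ x ∈ N, ∀ u ∈ A.map mk, u ∉ Subgroup.centralizer (N : Set (X ⧸ Z)) →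
      NonTwo (spreadEl u x) := by
    haveI := hNn
    by_cases hab : ∀ a ∈ N, ∀ b ∈ N, a * b = b * a
    · refine exists_spread_abelian hab (fun z hz hz2 => ?_) hA'
      by_contra hz1
      -- otherwise `N` is a 2-group and the preimage has a normal Sylow 2-subgroup
      have hN2 : IsPGroup 2 N := by
        let N2 : Subgroup (X ⧸ Z) :=
          { carrier := {w | w ∈ N ∧ w * w = 1}
            one_mem' := ⟨N.one_mem, one_mul 1⟩
            mul_mem' := fun {a b} ha hb => ⟨N.mul_mem ha.1 hb.1, by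
              have h : Commute a b := hab a ha.1 b hb.1
              rw [← sq, h.mul_pow, sq, sq, ha.2, hb.2, one_mul]⟩
            inv_mem' := fun {a} ha => ⟨N.inv_mem ha.1, by rw [← mul_inv_rev, ha.2, inv_one]⟩ }
        have hn : N2.Normal := ⟨fun w hw g => ⟨hNn.conj_mem w hw.1 g, by
          rw [show g * w * g⁻¹ * (g * w * g⁻¹) = g * (w * w) * g⁻¹ by group, hw.2, mul_one,
            mul_inv_cancel]⟩⟩
        rcases hNmin.2.2 N2 hn (fun w hw => hw.1) with h | h
        · exact absurd (Subgroup.mem_bot.1 (h.le (show z ∈ N2 from ⟨hz, hz2⟩))) hz1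
        · intro w
          refine ⟨1, Subtype.ext ?_⟩
          show (w : X ⧸ Z) ^ 2 ^ 1 = 1
          rw [pow_one, sq]
          exact (h.ge w.2).2
      obtain ⟨T⟩ := (inferInstance : Nonempty (Sylow 2 R))
      set ZR := Z.subgroupOf R
      have h2 : IsPGroup 2 (R ⧸ ZR) := by
        intro q
        obtain ⟨r, rfl⟩ := QuotientGroup.mk'_surjective ZR q
        obtain ⟨k, hk⟩ := hN2 ⟨mk r, r, r.2, rfl⟩
        refine ⟨k, ?_⟩
        rw [← map_pow]
        refine (QuotientGroup.eq_one_iff _).2 (Subgroup.mem_subgroupOf.2 ?_)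
        rw [← QuotientGroup.eq_one_iff, SubgroupClass.coe_pow, QuotientGroup.mk_pow]
        exact congrArg Subtype.val hk
      have hTZ := sup_eq_top_of_isPGroup T h2
      have hTn : (T : Subgroup R).Normal := ⟨fun t ht g => by
        obtain ⟨w, hw, s, hs, rfl⟩ :=
          Subgroup.mem_sup_of_normal_left.1 (hTZ.ge (Subgroup.mem_top g))
        have hwt : w * (s * t * s⁻¹) = s * t * s⁻¹ * w := Subtype.ext
          (Subgroup.mem_centralizer_iff.1 (hRZ (s * t * s⁻¹ : R).2) w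
            (Subgroup.mem_subgroupOf.1 hw))
        rw [show w * s * t * (w * s)⁻¹ = w * (s * t * s⁻¹) * w⁻¹ by group, hwt,
          mul_inv_cancel_right]
        exact mul_mem (mul_mem hs ht) (inv_mem hs)⟩
      have h3 : (T : Subgroup R) ≤ Cfsg.pCore 2 R := Cores.le_pCore hTn T.2
      have h4 : (T : Subgroup R) = ⊥ := by
        refine (Subgroup.map_eq_bot_iff_of_injective _ R.subtype_injective).1 (le_bot_iff.1 ?_)
        exact ((Subgroup.map_mono h3).trans Cores.map_subtype_pCore_le).trans hO.le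
      rw [h4, sup_bot_eq] at hTZ
      exact hZR.not_ge fun r hr =>
        Subgroup.mem_subgroupOf.1 (hTZ.ge (Subgroup.mem_top (⟨r, hr⟩ : R)))
    · exact exists_spread_semisimple hSp hIn
        (fun h => hS3 (EvenLocal.involves_of_involves_image
          (mk.comp (Subgroup.topEquiv : (⊤ : Subgroup X) ≃* X).toMonoidHom)
          (hmks.comp (MulEquiv.surjective _)) h))
        (secK_of_surjective hmks hsec) hNmin hab hA'
  obtain ⟨x0, rfl⟩ := hmks x
  refine ⟨x0, fun u hu hu1 k hk => hx (mk u) ⟨u, hu, rfl⟩ (fun h => hu1 (hfaith u hu h)) k ?_⟩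
  have e : spreadEl (mk u) (mk x0) = mk (spreadEl u x0) := by simp [spreadEl]
  rw [e, ← map_pow, hk, map_one]

end Cfsg.Agent.TwoFact
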