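import Cfsg.Agent.TwoFact.Chief
import Cfsg.Agent.TwoFact.SpreadTop

/-!
A normal elementary subgroup of `S` violating the E-group condition lies in the 2-core.
-/

set_option autoImplicit false
set_option linter.unusedSectionVars false
set_option linter.style.haveILetI false

open scoped IsMulCommutative

namespace Cfsg.Agent.TwoFact

open Cfsg.Agent.CF (Nz fixSub)
open Cfsg.Agent.Fusion (cj mem_cj conj_mem_cj card_cj)
open Cfsg.Agent.FusionAux.MinParabolic (Constr)

universe u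

theorem map_core_le {G X : Type u} [Group G] [Group X] (f : G →* X) (L : Subgroup G)
    (L' : Subgroup X) (h : L.map f = L') :
    ((Cfsg.pCore 2 L).map L.subtype).map f ≤ (Cfsg.pCore 2 L').map L'.subtype := by
  subst h
  have hs := f.subgroupMap_surjective L
  have h1 := Cores.map_pCore_le_of_surjective (p := 2) (f.subgroupMap L) hs
  rintro _ ⟨_, ⟨l, hl, rfl⟩, rfl⟩
  exact ⟨f.subgroupMap L l, h1 ⟨l, hl, rfl⟩, rfl⟩

variable {G : Type u} [Group G] [Finite G]

theorem elemAb_cj {V : Subgroup G} (hV : Cfsg.IsElementaryAbelian 2 V) (g : G) :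
    Cfsg.IsElementaryAbelian 2 (cj g V) := Modules.elemAb_map _ hV

/-- One side of the commutation inequality. -/
theorem ineq_side {Q U V W : Subgroup G} (hV : Cfsg.IsElementaryAbelian 2 V)
    (hW : Cfsg.IsElementaryAbelian 2 W) (hg : EGood V U) (hWU : W ⊓ Q ≤ U) {w n : ℕ}
    (hw : Nat.card V = w * n) (hw2 : 2 ≤ w) (hn : Nat.card (W ⊓ Q : Subgroup G) = n)
    (hle : w ^ 2 * Nat.card (W ⊓ Q ⊓ Subgroup.centralizer (V : Set G) : Subgroup G) ≤ n) :
    Nat.card (V ⊓ Q ⊓ Subgroup.centralizer (W : Set G) : Subgroup G) <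
      Nat.card (W ⊓ Q ⊓ Subgroup.centralizer (V : Set G) : Subgroup G) := by
  set R := W ⊓ Q
  set k1 := Nat.card (R ⊓ Subgroup.centralizer (V : Set G) : Subgroup G) with hk1
  set k2 := Nat.card (V ⊓ Q ⊓ Subgroup.centralizer (W : Set G) : Subgroup G) with hk2
  have hn0 : 0 < n := hn ▸ Nat.card_pos
  obtain ⟨h1, -⟩ := hg R hWU (by
    rw [Subgroup.commutator_le]
    intro a ha b hb
    have hab : Commute a b := Modules.elemAb_comm hW ha.1 hb.1
    rw [hab.commutator_eq]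
    exact one_mem _) (fun r hr => by rw [hW.2 r hr.1]; exact one_mem _) (fun hRV => by
      rw [hk1, inf_eq_left.2 hRV, hn] at hle
      exact absurd hle (not_le.2 (lt_mul_of_one_lt_left hn0 (Nat.one_lt_pow two_ne_zero hw2))))
  rw [hw, hn, ← hk1] at h1
  have hc : k2 ≤ Nat.card (V ⊓ Subgroup.centralizer (R : Set G) : Subgroup G) :=
    Subgroup.card_le_of_le (le_inf (inf_le_left.trans inf_le_left)
      (inf_le_right.trans (Subgroup.centralizer_le inf_le_left)))
  by_contra hcon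
  rw [not_lt] at hcon
  have hk1p : 0 < k1 := Nat.card_pos
  refine absurd h1 (not_lt.2 ?_)
  calc (w * n) ^ 2 * k1 ^ 3 = w ^ 2 * k1 * (n ^ 2 * k1 ^ 2) := by ring
    _ ≤ n * (n ^ 2 * k2 ^ 2) := Nat.mul_le_mul hle
        (Nat.mul_le_mul_left _ (Nat.pow_le_pow_left hcon 2))
    _ ≤ _ := by
      rw [← mul_assoc, ← pow_succ']
      exact Nat.mul_le_mul_left _ (Nat.pow_le_pow_left hc 2)

/-- A good normal elementary subgroup lies in the 2-core, given two conjugates of its image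
generating a group whose 2-core avoids them. -/
theorem le_pCore_of_pair [Fact (Nat.Prime 2)] (hB : TwoBound.{u})
    (hG : Hyp G) (S : Sylow 2 G) {V : Subgroup G} (hVS : V ≤ (S : Subgroup G))
    (hVn : (S : Subgroup G) ≤ Nz V) (hV : Cfsg.IsElementaryAbelian 2 V)
    (hgood : EGood V (S : Subgroup G))
    (hpair : ∃ x : G ⧸ Cfsg.pCore 2 G, ∀ y : G ⧸ Cfsg.pCore 2 G, y = x ∨ y = x⁻¹ →
      V.map (QuotientGroup.mk' (Cfsg.pCore 2 G)) ⊓
        (Cfsg.pCore 2 ↥(V.map (QuotientGroup.mk' (Cfsg.pCore 2 G)) ⊔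
          cj y (V.map (QuotientGroup.mk' (Cfsg.pCore 2 G))))).map
        (V.map (QuotientGroup.mk' (Cfsg.pCore 2 G)) ⊔
          cj y (V.map (QuotientGroup.mk' (Cfsg.pCore 2 G)))).subtype = ⊥) :
    V ≤ Cfsg.pCore 2 G := by
  set Q := Cfsg.pCore 2 G with hQdef
  haveI hQn : Q.Normal := Cores.pCore_normal_inst (p := 2) G
  have hQS : Q ≤ (S : Subgroup G) := Cores.pCore_le_sylow S
  by_contra hVQ
  set mk := QuotientGroup.mk' Q with hmk
  have hmks : Function.Surjective mk := QuotientGroup.mk'_surjective Q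
  have hS3 := not_involves_three_of_hyp hG
  obtain ⟨x, hx⟩ := hpair
  obtain ⟨g, rfl⟩ := hmks x
  set W := cj g V with hW
  have hWe : Cfsg.IsElementaryAbelian 2 W := elemAb_cj hV g
  set L := V ⊔ W with hL
  set O := (Cfsg.pCore 2 L).map L.subtype with hO
  have hcjmap : ∀ (y : G) (Y : Subgroup G), (cj y Y).map mk = cj (mk y) (Y.map mk) := fun y Y => by
    rw [cj, cj, Subgroup.map_map, Subgroup.map_map]
    congr 1
  have hVO : V ⊓ O ≤ Q := by
    intro v hv
    have h1 := map_core_le mk L (V.map mk ⊔ cj (mk g) (V.map mk))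
      (by rw [hL, Subgroup.map_sup, hW, hcjmap]) ⟨v, hv.2, rfl⟩
    have h2 := (hx (mk g) (Or.inl rfl)).le ⟨⟨v, hv.1, rfl⟩, h1⟩
    exact (QuotientGroup.eq_one_iff v).1 (Subgroup.mem_bot.1 h2)
  have hWO : W ⊓ O ≤ Q := by
    intro v hv
    set f := mk.comp (MulAut.conj g⁻¹).toMonoidHom with hf
    have h1 := map_core_le f L (V.map mk ⊔ cj (mk g)⁻¹ (V.map mk)) (by
      rw [hL, Subgroup.map_sup, hf, ← Subgroup.map_map, ← Subgroup.map_map]
      show (cj g⁻¹ V).map mk ⊔ (cj g⁻¹ W).map mk = _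
      rw [hW, Fusion.cj_inv_cj, hcjmap, map_inv, sup_comm]) ⟨v, hv.2, rfl⟩
    have h2 := (hx (mk g)⁻¹ (Or.inr rfl)).le
      ⟨⟨g⁻¹ * v * g, mem_cj.1 hv.1, by simp [hf, hmk]⟩, h1⟩
    have h3 : g⁻¹ * v * g ∈ Q := by
      have := (QuotientGroup.eq_one_iff ((MulAut.conj g⁻¹) v)).1 (Subgroup.mem_bot.1 h2)
      simpa [MulAut.conj_apply] using this
    have h4 := hQn.conj_mem _ h3 g
    rwa [show g * (g⁻¹ * v * g) * g⁻¹ = v by group] at h4
  -- the index bound, for either of the two subgroups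
  let ψ : L →* MulAut Q := (MulAut.conjNormal (H := Q)).comp L.subtype
  have hQ2 : IsPGroup 2 Q := Cores.pCore_isPGroup
  have hside : ∀ B C : Subgroup G, B ≤ L → C ≤ L → Cfsg.IsElementaryAbelian 2 B →
      B ⊔ C = L → Q ≤ Nz B → B ⊓ O ≤ Q →
      Nat.card B ^ 2 * Nat.card (B ⊓ Q ⊓ Subgroup.centralizer (C : Set G) : Subgroup G) ≤
        Nat.card (B ⊓ Q : Subgroup G) ^ 3 := by
    intro B C hBL hCL hBe hBC hQB hBO
    obtain ⟨N, hN, hNp, hle⟩ := exists_core_bound hB (Nat.card Q) le_rfl hQ2 ψ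
      (fun h => hS3 (EvenLocal.involves_subgroup h))
      (secK_of_injective L.subtype_injective hG.sec) (B.subgroupOf L) ((B ⊓ Q).subgroupOf Q)
      (fun b hb => Subtype.ext (by rw [Subgroup.coe_mul, ← sq]; exact hBe.2 _ hb)) (fun b hb q => by
        have hb' : (b : G) ∈ B := hb
        refine ⟨?_, (ψ b q * q⁻¹).2⟩
        show ((MulAut.conjNormal (H := Q) (b : G) q * q⁻¹ : Q) : G) ∈ B
        rw [Subgroup.coe_mul, MulAut.conjNormal_apply, Subgroup.coe_inv,
          show (b : G) * q * (b : G)⁻¹ * (q : G)⁻¹ = b * ((q : G) * (b : G)⁻¹ * (q : G)⁻¹) by group]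
        exact B.mul_mem hb' ((Subgroup.mem_normalizer_iff.1 (hQB q.2) _).1 (B.inv_mem hb')))
    have hN2 : N ≤ Cfsg.pCore 2 L := by
      refine Cores.le_pCore hN fun l => ?_
      obtain ⟨k, hk⟩ := hNp ⟨ψ l, l, l.2, rfl⟩
      have hk' : ψ ((l : L) ^ 2 ^ k) = 1 := by
        rw [map_pow]; exact congrArg Subtype.val hk
      have hmem : ((l : L) : G) ^ 2 ^ k ∈ Q := hG.constr
        (Subgroup.mem_centralizer_iff.2 fun q hq => by
          have e := congrArg Subtype.val (DFunLike.congr_fun hk' ⟨q, hq⟩)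
          rw [show ψ ((l : L) ^ 2 ^ k) = MulAut.conjNormal (((l : L) : G) ^ 2 ^ k) from by
            show MulAut.conjNormal (((l : L) ^ 2 ^ k : L) : G) = _
            rw [SubgroupClass.coe_pow], MulAut.conjNormal_apply] at e
          exact (mul_inv_eq_iff_eq_mul.1 e).symm)
      obtain ⟨j, hj⟩ := hQ2 ⟨_, hmem⟩
      refine ⟨k + j, Subtype.ext (Subtype.ext ?_)⟩
      have hj' : (((l : L) : G) ^ 2 ^ k) ^ 2 ^ j = 1 := congrArg Subtype.val hj
      rw [← pow_mul, ← pow_add] at hj'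
      simpa using hj'
    have e1 : Nat.card (B.subgroupOf L) = Nat.card B :=
      Nat.card_congr (Subgroup.subgroupOfEquivOfLe hBL).toEquiv
    have e2 : Nat.card ((B ⊓ Q).subgroupOf Q) = Nat.card (B ⊓ Q : Subgroup G) :=
      Nat.card_congr (Subgroup.subgroupOfEquivOfLe inf_le_right).toEquiv
    have e3 : Nat.card (B.subgroupOf L ⊓ N : Subgroup L) ≤ Nat.card (B ⊓ Q : Subgroup G) := by
      rw [← Subgroup.card_map_of_injective L.subtype_injective]
      refine Subgroup.card_le_of_le ?_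
      rintro _ ⟨b, ⟨hb1, hb2⟩, rfl⟩
      exact ⟨hb1, hBO ⟨hb1, b, hN2 hb2, rfl⟩⟩
    have e4 : Nat.card (B ⊓ Q ⊓ Subgroup.centralizer (C : Set G) : Subgroup G) ≤
        Nat.card ((B ⊓ Q).subgroupOf Q ⊓ fixAll ψ : Subgroup Q) := by
      rw [← Subgroup.card_map_of_injective Q.subtype_injective
        (K := (B ⊓ Q).subgroupOf Q ⊓ fixAll ψ)]
      refine Subgroup.card_le_of_le ?_
      rintro q ⟨hq, hqC⟩
      refine ⟨⟨q, hq.2⟩, ⟨hq, fun l => Subtype.ext ?_⟩, rfl⟩
      show (MulAut.conjNormal (H := Q) (l : G) ⟨q, hq.2⟩ : G) = q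
      rw [MulAut.conjNormal_apply]
      have hle' : L ≤ Subgroup.centralizer ({q} : Set G) := by
        rw [← hBC]
        refine sup_le (fun b hb => ?_) (fun c hc => ?_)
        · exact Subgroup.mem_centralizer_singleton_iff.2 (Modules.elemAb_comm hBe hb hq.1)
        · exact Subgroup.mem_centralizer_singleton_iff.2
            (Subgroup.mem_centralizer_iff.1 hqC c hc)
      exact mul_inv_eq_iff_eq_mul.2 (Subgroup.mem_centralizer_singleton_iff.1 (hle' l.2))
    rw [e1, e2] at hle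
    calc _ ≤ Nat.card B ^ 2 * Nat.card ((B ⊓ Q).subgroupOf Q ⊓ fixAll ψ : Subgroup Q) :=
          Nat.mul_le_mul_left _ e4
      _ ≤ _ := hle
      _ ≤ _ := by
        rw [pow_succ (Nat.card (B ⊓ Q : Subgroup G)) 2]
        exact Nat.mul_le_mul_right _ (Nat.pow_le_pow_left e3 2)
  have hQV : Q ≤ Nz V := hQS.trans hVn
  have hQW : Q ≤ Nz W := fun q hq => by
    refine CF.mem_Nz.2 ?_
    have h1 : g⁻¹ * q * g ∈ Q := by simpa using hQn.conj_mem q hq g⁻¹
    rw [hW, Fusion.cj_cj, show q * g = g * (g⁻¹ * q * g) by group, ← Fusion.cj_cj,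
      CF.mem_Nz.1 (hQV h1)]
  -- the sizes
  set n := Nat.card (V ⊓ Q : Subgroup G) with hn
  set w := Nat.card (V.map mk) with hwdef
  have hwn : Nat.card V = w * n := by
    have h := OffThm.card_map_mul_card_inf_ker mk V
    rw [hmk, QuotientGroup.ker_mk'] at h
    exact h.symm
  have hw2 : 2 ≤ w := by
    refine (Subgroup.one_lt_card_iff_ne_bot _).2 fun h => hVQ ?_
    rwa [Subgroup.map_eq_bot_iff, hmk, QuotientGroup.ker_mk'] at h
  have hWn : Nat.card (W ⊓ Q : Subgroup G) = n := by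
    rw [hn, hW, ← card_cj g (V ⊓ Q)]
    refine congrArg (fun Y : Subgroup G => Nat.card Y) ?_
    rw [cj, cj, Subgroup.map_inf _ _ _ (MulAut.conj g).injective]
    exact congrArg₂ (· ⊓ ·) rfl (Fusion.cj_eq_of_mem ((Subgroup.normalizer_eq_top_iff.2 hQn).ge
      (Subgroup.mem_top g))).symm
  have hsV := hside V W le_sup_left le_sup_right hV rfl hQV hVO
  have hsW := hside W V le_sup_right le_sup_left hWe (sup_comm W V) hQW hWO
  have hcW : Nat.card W = w * n := by rw [hW, card_cj, hwn]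
  rw [hwn, ← hn] at hsV
  rw [hcW, hWn] at hsW
  have hn0 : 0 < n := Nat.card_pos
  have red : ∀ k, (w * n) ^ 2 * k ≤ n ^ 3 → w ^ 2 * k ≤ n := fun k hk => by
    refine Nat.le_of_mul_le_mul_right (c := n ^ 2) ?_ (by positivity)
    calc w ^ 2 * k * n ^ 2 = (w * n) ^ 2 * k := by ring
      _ ≤ n ^ 3 := hk
      _ = _ := by ring
  have h1 := ineq_side hV hWe hgood (inf_le_right.trans hQS) hwn hw2 hWn (red _ hsW)
  have hgood' : EGood W (cj g (S : Subgroup G)) := (eGood_map (MulAut.conj g).injective).2 hgood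
  have h2 := ineq_side hWe hV hgood' (by
    intro q hq
    rw [mem_cj]
    exact hQS (by simpa using hQn.conj_mem q hq.2 g⁻¹)) hcW hw2 hn.symm (red _ hsV)
  omega

theorem hyp_of_sylow_le [Fact (Nat.Prime 2)] (hG : Hyp G) {S : Sylow 2 G} {H : Subgroup G}
    (hSH : (S : Subgroup G) ≤ H) : Hyp H := by
  refine ⟨?_, fun h => hG.free (EvenLocal.involves_subgroup h),
    secK_of_injective H.subtype_injective hG.sec⟩
  have hQH : Cfsg.pCore 2 G ≤ H := (Cores.pCore_le_sylow S).trans hSH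
  have h1 : (Cfsg.pCore 2 G).subgroupOf H ≤ Cfsg.pCore 2 H :=
    Cores.le_pCore inferInstance Cores.pCore_isPGroup.comap_subtype
  intro x hx
  refine h1 (Subgroup.mem_subgroupOf.2 (hG.constr (Subgroup.mem_centralizer_iff.2 fun q hq => ?_)))
  exact congrArg Subtype.val
    (Subgroup.mem_centralizer_iff.1 hx ⟨q, hQH hq⟩ (h1 (Subgroup.mem_subgroupOf.2 hq)))

/-- A normal elementary subgroup of `S` good for `S` lies in the 2-core. -/
theorem le_pCore_of_eGood [Fact (Nat.Prime 2)] (hB : TwoBound.{u}) (hSp : SpreadFact.{u})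
    (hIn : InnerFact.{u}) :
    ∀ (n : ℕ) {G : Type u} [Group G] [Finite G], Nat.card G ≤ n → Hyp G →
    ∀ (S : Sylow 2 G) {V : Subgroup G}, V ≤ (S : Subgroup G) → (S : Subgroup G) ≤ Nz V →
      Cfsg.IsElementaryAbelian 2 V → EGood V (S : Subgroup G) → V ≤ Cfsg.pCore 2 G := by
  intro n
  induction n with
  | zero => intro G _ _ h; exact absurd h (not_le.2 Nat.card_pos)
  | succ n ih =>
    intro G _ _ hn hG S V hVS hVn hV hgood
    refine le_pCore_of_pair hB hG S hVS hVn hV hgood ?_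
    set Q := Cfsg.pCore 2 G with hQdef
    haveI hQn : Q.Normal := Cores.pCore_normal_inst (p := 2) G
    set mk := QuotientGroup.mk' Q with hmk
    have hmks : Function.Surjective mk := QuotientGroup.mk'_surjective Q
    have hS3 : ¬ Cfsg.Involves (Equiv.Perm (Fin 3)) (G ⧸ Q) := fun h =>
      not_involves_three_of_hyp hG (EvenLocal.involves_of_involves_image
        (mk.comp (Subgroup.topEquiv : (⊤ : Subgroup G) ≃* G).toMonoidHom)
        (hmks.comp (MulEquiv.surjective _)) h)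
    have hA : ∀ a ∈ V.map mk, a * a = 1 := by
      rintro _ ⟨v, hv, rfl⟩
      rw [← map_mul, ← sq, hV.2 v hv, map_one]
    suffices hmin : ∀ M : Subgroup (G ⧸ Q), M.Normal →
        M ⊔ (S.mapSurjective hmks : Subgroup (G ⧸ Q)) ≠ ⊤ →
        V.map mk ≤ Subgroup.centralizer (M : Set (G ⧸ Q)) by
      obtain ⟨x, hx⟩ := exists_spread_top hSp hIn Cores.pCore_quotient_pCore_eq_bot hS3
        (secK_of_surjective hmks hG.sec) (S.mapSurjective hmks) (A := V.map mk)
        (Subgroup.map_mono hVS) hA hmin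
      exact ⟨x, fun y hy => inf_core_eq_bot hA hx y hy⟩
    intro M hM hMS
    haveI := hM
    set H := M.comap mk ⊔ (S : Subgroup G) with hH
    have hSH : (S : Subgroup G) ≤ H := le_sup_right
    have hMH : M.comap mk ≤ H := le_sup_left
    have hHt : H ≠ ⊤ := fun h => hMS (by
      have := congrArg (Subgroup.map mk) h
      rwa [hH, Subgroup.map_sup, Subgroup.map_comap_eq_self_of_surjective hmks,
        Subgroup.map_top_of_surjective mk hmks] at this)
    have hcard : Nat.card H ≤ n := by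
      have h := FusionAux.NoOffender.card_lt_of_lt hHt.lt_top
      rw [Subgroup.card_top] at h
      omega
    have hVH : V ≤ H := hVS.trans hSH
    have e1 : (V.subgroupOf H).map H.subtype = V := Subgroup.map_subgroupOf_eq_of_le hVH
    have e2 : ((S.subtype hSH : Sylow 2 H) : Subgroup H).map H.subtype = (S : Subgroup G) := by
      show ((S : Subgroup G).subgroupOf H).map H.subtype = _
      rw [Subgroup.map_subgroupOf_eq_of_le hSH]
    have h1 : V.subgroupOf H ≤ Cfsg.pCore 2 H := by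
      refine ih hcard (hyp_of_sylow_le hG hSH) (S.subtype hSH) ?_ ?_ ?_ ?_
      · exact fun v hv => Subgroup.mem_subgroupOf.2 (hVS (Subgroup.mem_subgroupOf.1 hv))
      · refine (map_le_Nz_map H.subtype_injective).1 ?_
        rw [e1, e2]; exact hVn
      · exact ⟨⟨⟨fun a b => Subtype.ext (Subtype.ext
            (Modules.elemAb_comm hV (Subgroup.mem_subgroupOf.1 a.2)
              (Subgroup.mem_subgroupOf.1 b.2)))⟩⟩, fun a ha => Subtype.ext (by
          rw [SubgroupClass.coe_pow]; exact hV.2 _ (Subgroup.mem_subgroupOf.1 ha))⟩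
      · refine (eGood_map H.subtype_injective).1 ?_
        rw [e1, e2]; exact hgood
    haveI hOn : (Cfsg.pCore 2 H).Normal := Cores.pCore_normal_inst (p := 2) H
    set O := (Cfsg.pCore 2 H).map H.subtype with hO
    set T := O.map mk ⊓ M with hT
    have hT2 : IsPGroup 2 T :=
      IsPGroup.to_le (((Cores.pCore_isPGroup (p := 2) (G := H)).map _).map _) inf_le_left
    have hTn : (T.subgroupOf M).Normal := ⟨by
      rintro t ht ⟨m, hm⟩
      obtain ⟨⟨_, ⟨o, ho, rfl⟩, hto⟩, htM⟩ := Subgroup.mem_subgroupOf.1 ht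
      obtain ⟨g, rfl⟩ := hmks m
      refine Subgroup.mem_subgroupOf.2 ⟨⟨g * (o : G) * g⁻¹,
        ⟨⟨g, hMH hm⟩ * o * ⟨g, hMH hm⟩⁻¹, hOn.conj_mem o ho _, rfl⟩, ?_⟩,
        M.mul_mem (M.mul_mem hm htM) (M.inv_mem hm)⟩
      rw [map_mul, map_mul, map_inv]
      exact congrArg (fun z => mk g * z * (mk g)⁻¹) hto⟩
    have hTbot : T = ⊥ := by
      refine le_bot_iff.1 ?_
      refine le_trans ?_ (Cores.pCore_quotient_pCore_eq_bot (p := 2) (G := G)).le
      refine (Subgroup.map_subgroupOf_eq_of_le (inf_le_right : T ≤ M)).ge.trans ?_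
      exact (Subgroup.map_mono (Cores.le_pCore hTn hT2.comap_subtype)).trans
        Cores.map_subtype_pCore_le
    rintro _ ⟨v, hv, rfl⟩
    refine Subgroup.mem_centralizer_iff.2 fun m hm => ?_
    obtain ⟨g, rfl⟩ := hmks m
    have hgH : g ∈ H := hMH hm
    have hvO : (⟨v, hVH hv⟩ : H) ∈ Cfsg.pCore 2 H := h1 (Subgroup.mem_subgroupOf.2 hv)
    have hc1 : g * v * g⁻¹ * v⁻¹ ∈ O :=
      ⟨⟨g, hgH⟩ * ⟨v, hVH hv⟩ * ⟨g, hgH⟩⁻¹ * ⟨v, hVH hv⟩⁻¹,
        mul_mem (hOn.conj_mem _ hvO _) (inv_mem hvO), rfl⟩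
    have hc2 : mk (g * v * g⁻¹ * v⁻¹) ∈ M := by
      rw [show g * v * g⁻¹ * v⁻¹ = g * (v * g⁻¹ * v⁻¹) by group, map_mul]
      refine M.mul_mem hm ?_
      rw [map_mul, map_mul, map_inv, map_inv]
      exact hM.conj_mem _ (M.inv_mem hm) _
    have h2 := Subgroup.mem_bot.1 (hTbot.le (⟨⟨_, hc1, rfl⟩, hc2⟩ : _ ∈ T))
    rw [map_mul, map_mul, map_mul, map_inv, map_inv, mul_inv_eq_one, mul_inv_eq_iff_eq_mul] at h2
    exact h2

end Cfsg.Agent.TwoFact
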