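import Cfsg.Agent.TwoFact.Main

/-!
The three factorisations of the 2-factorisation theorem, from the facts about the simple sections.
-/

set_option autoImplicit false

namespace Cfsg.Agent.TwoFact

open Cfsg.Agent.FusionAux.MinParabolic (Constr zOf)

universe u

theorem factorisation (hB : TwoBound.{u}) (hSp : SpreadFact.{u}) (hIn : InnerFact.{u})
    {G : Type u} [Group G] [Finite G] (hG : Hyp G) (S : Sylow 2 G) :
    (∀ g : G, ∃ c ∈ Subgroup.centralizer ((((S : Subgroup G) ⊓
        Subgroup.centralizer ((S : Subgroup G) : Set G)) : Subgroup G) : Set G),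
      ∃ n ∈ Subgroup.normalizer (((Cfsg.thompsonSubgroupOf 2 (S : Subgroup G)) :
        Subgroup G) : Set G), g = c * n) ∧
    (∀ g : G, ∃ c ∈ Subgroup.centralizer ((((S : Subgroup G) ⊓
        Subgroup.centralizer ((S : Subgroup G) : Set G)) : Subgroup G) : Set G),
      ∃ n ∈ Subgroup.normalizer ((((Cfsg.jHat ↥(S : Subgroup G)).map (S : Subgroup G).subtype) :
        Subgroup G) : Set G), g = c * n) ∧
    (∀ g : G, ∃ c ∈ Subgroup.centralizer ((Cfsg.omegaOne 2
        (((Cfsg.jHat ↥(S : Subgroup G)).map (S : Subgroup G).subtype) ⊓ Subgroup.centralizer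
          (((Cfsg.jHat ↥(S : Subgroup G)).map (S : Subgroup G).subtype) : Set G))) : Set G),
      ∃ n ∈ Subgroup.normalizer (((Cfsg.thompsonSubgroupOf 2 (S : Subgroup G)) :
        Subgroup G) : Set G), g = c * n) := by
  haveI : Fact (Nat.Prime 2) := ⟨Nat.prime_two⟩
  obtain ⟨C, hCn, hCz, hJC, hjC⟩ := exists_core hB hG S
  rw [jHat_map_eq]
  refine ⟨fun g => ?_, fun g => ?_, fun g => exists_mul_wSub hB hSp hIn _ le_rfl hG S g⟩
  · obtain ⟨c, hc, n, hn, hJ, -⟩ := exists_frattini S hCn hJC g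
    exact ⟨c, hCz hc, n, hJ, hn⟩
  · obtain ⟨c, hc, n, hn, -, hj⟩ := exists_frattini S hCn hJC g
    exact ⟨c, hCz hc, n, hj hjC, hn⟩

end Cfsg.Agent.TwoFact
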