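import Cfsg.Agent.TwoFact.Basic

/-!
The facts about the simple groups `Sz(q)` and `PSL₂(3^odd)` used by the 2-factorisation theorem,
as propositions.
-/

set_option autoImplicit false

namespace Cfsg.Agent.TwoFact

open Cfsg.Agent.CF (Nz)

universe u

/-- The order of `x` is not a power of two. -/
def NonTwo {X : Type u} [Group X] (x : X) : Prop := ∀ k : ℕ, x ^ 2 ^ k ≠ 1

/-- An element of a simple group spreading an elementary subgroup. -/
def SpreadFact : Prop :=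
  ∀ {T : Type u} [Group T] [Finite T], IsSimpleGroup T → ¬ IsMulCommutative T →
    Cfsg.IsSuzukiOrPSL2OddPowerThree T → ¬ Cfsg.Involves (Equiv.Perm (Fin 3)) T →
    ∀ B : Subgroup T, (∀ b ∈ B, b * b = 1) →
      ∃ x : T, NonTwo x ∧ ∀ s ∈ B, s ≠ 1 → NonTwo (s * (x⁻¹ * s * x))

/-- Involutions normalising a simple subgroup induce inner automorphisms on it. -/
def InnerFact : Prop :=
  ∀ {X : Type u} [Group X] [Finite X], ¬ Cfsg.Involves (Equiv.Perm (Fin 3)) X →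
    ∀ T : Subgroup X, IsSimpleGroup T → ¬ IsMulCommutative T →
    Cfsg.IsSuzukiOrPSL2OddPowerThree T → ∀ u : X, u * u = 1 → u ∈ Nz T →
      ∃ s ∈ T, u * s⁻¹ ∈ Subgroup.centralizer (T : Set X)

/-- The data bounding a noncyclic elementary subgroup. -/
def BoundFact : Prop :=
  ∀ {T : Type u} [Group T] [Finite T], IsSimpleGroup T → ¬ IsMulCommutative T →
    Cfsg.IsSuzukiOrPSL2OddPowerThree T → ¬ Cfsg.Involves (Equiv.Perm (Fin 3)) T →
    ∀ B : Subgroup T, (∀ b ∈ B, b * b = 1) → 4 ≤ Nat.card B →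
      (∃ P : Subgroup T, Odd (Nat.card P) ∧ B ≤ Nz P ∧
        ¬ B ≤ Subgroup.centralizer (P : Set T)) ∨
      ∃ (p : ℕ) (x b g : T), p.Prime ∧ orderOf x = p ∧ b ∈ B ∧
        (g * b * g⁻¹) * x * (g * b * g⁻¹)⁻¹ = x⁻¹ ∧
        ∀ d : ℕ, 0 < d → p ∣ 2 ^ d - 1 → Nat.card B ^ 4 ≤ 2 ^ d

end Cfsg.Agent.TwoFact
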