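import Cfsg.Agent.TwoFact.Factor
import Cfsg.Agent.OffThm.Functors
import Cfsg.Agent.CF.FocalOdd.Functors

/-!
`Ω₁Z(Ĵ)` as a functor; with `J` it controls fusion in the groups without section `S₄` whose
constrained sections have the right simple sections.
-/

set_option autoImplicit false
set_option linter.unusedSectionVars false

namespace Cfsg.Agent.TwoFact

open Cfsg.Agent.CF (Fam FusIn Nz IsSec omZ)
open Cfsg.Agent.FusionAux.MinParabolic (Constr)

universe u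

variable {G : Type u} [Group G] [Finite G]

theorem mem_omZ_comm {S : Subgroup G} {z : G} (hz : z ∈ omZ 2 S) {s : G} (hs : s ∈ S) :
    s * z = z * s :=
  Subgroup.mem_centralizer_iff.1 ((CF.omZ_le_inf 2 S) hz).2 s hs

/-- `Ω₁Z(S)` lies in the Thompson subgroup. -/
theorem omZ_le_thompson [Fact (Nat.Prime 2)] (S : Subgroup G) :
    omZ 2 S ≤ Cfsg.thompsonSubgroupOf 2 S := by
  obtain ⟨A, hA⟩ := Modules.maxElemAbIn_nonempty 2 S
  refine le_trans ?_ (Modules.le_thompsonSubgroupOf hA)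
  refine le_of_maxElem ⟨⟨⟨fun a b => Subtype.ext ?_⟩⟩, fun a ha =>
    CF.pow_eq_one_of_mem_omZ (P := S) a ha⟩ (CF.omZ_le 2 S) hA fun a ha => ?_
  · exact mem_omZ_comm b.2 (CF.omZ_le 2 S a.2)
  · exact Subgroup.mem_centralizer_iff.2 fun z hz => (mem_omZ_comm hz (hA.1 ha)).symm

theorem omZ_le_wSub [Fact (Nat.Prime 2)] (S : Subgroup G) : omZ 2 S ≤ wSub S := fun z hz =>
  mem_wSub ((thompson_le_jH S) (omZ_le_thompson S hz))
    (fun _ hs => Subgroup.mem_centralizer_singleton_iff.2 (mem_omZ_comm hz (jH_le S hs)))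
    (CF.pow_eq_one_of_mem_omZ (P := S) z hz)

/-- `Ω₁Z(Ĵ)` as a functor on groups. -/
def wFun : ∀ (Q : Type u) [Group Q], Subgroup Q := fun Q _ => wSub (⊤ : Subgroup Q)

theorem induced_wFun (P : Subgroup G) : Cfsg.inducedFunctor wFun P = wSub P := by
  rw [Cfsg.inducedFunctor, wFun, ← wSub_map P.subtype_injective, ← MonoidHom.range_eq_map,
    Subgroup.range_subtype]

theorem wFun_charP : Cfsg.IsCharPFunctor.{u} 2 wFun := by
  haveI : Fact (Nat.Prime 2) := ⟨Nat.prime_two⟩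
  refine ⟨fun Q _ _ hQ hne h => ?_, fun Q R _ _ _ _ φ => ?_⟩
  · haveI := hne
    refine CF.FocalOdd.omZ_ne_bot (p := 2) (P := (⊤ : Subgroup Q)) (hQ.to_subgroup ⊤) top_ne_bot
      (le_bot_iff.1 ((omZ_le_wSub _).trans (le_of_eq h)))
  · show (wSub _).map _ = wSub _
    rw [← wSub_map φ.injective, Subgroup.map_top_of_surjective _ φ.surjective]

theorem wj_charP : ∀ W ∈ ({wFun, OffThm.jeFun} : Set (∀ (Q : Type u) [Group Q], Subgroup Q)),
    Cfsg.IsCharPFunctor.{u} 2 W := by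
  rintro W (rfl | rfl)
  exacts [wFun_charP, OffThm.jeFun_charP]

/-- The pair `Ω₁Z(Ĵ)`, `J` controls fusion. -/
theorem fusIn_wj [Fact (Nat.Prime 2)] (hB : TwoBound.{u}) (hSp : SpreadFact.{u})
    (hIn : InnerFact.{u}) (hfree : ¬ Cfsg.Involves (Equiv.Perm (Fin 4)) G)
    (hSec : ∀ (X : Type u) [Group X] [Finite X], IsSec X G → Constr X → SecK X) (S : Sylow 2 G) :
    FusIn (Fam ({wFun, OffThm.jeFun} : Set (∀ (Q : Type u) [Group Q], Subgroup Q)) G) ⊤
      (S : Subgroup G) := by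
  refine CF.fusIn_of_sections wj_charP ?_ G (IsSec.refl G) S
  intro Y _ _ hY hC T
  refine CF.fusIn_of_mul (W₁ := Cfsg.inducedFunctor wFun) (W₂ := Cfsg.inducedFunctor OffThm.jeFun)
    (CF.fam_conjFunctor wj_charP) T ⟨wFun, Or.inl rfl, rfl⟩ ⟨OffThm.jeFun, Or.inr rfl, rfl⟩
    fun y => ?_
  rw [induced_wFun, OffThm.induced_jeFun]
  obtain ⟨c, hc, m, hm, he⟩ := exists_mul_wSub hB hSp hIn _ le_rfl
    ⟨hC, fun h => hfree (OffThm.involves_of_isSec hY h), hSec Y hY hC⟩ T y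
  exact ⟨c, Subgroup.centralizer_le_normalizer _ hc, m, hm, he⟩

end Cfsg.Agent.TwoFact
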