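import Cfsg.Agent.TwoFact.Escape
import Cfsg.Agent.CF.WeakClosureInd

/-!
`G = C(Ω₁Z(Ĵ(S))) N(J(S))` in the constrained groups of the 2-factorisation theorem.
-/

set_option autoImplicit false
set_option linter.unusedSectionVars false
set_option linter.style.haveILetI false

open scoped IsMulCommutative

namespace Cfsg.Agent.TwoFact

open Cfsg.Agent.CF (IsSyl Nz omZ actHom fixSub)
open Cfsg.Agent.Fusion (cj mem_cj conj_mem_cj card_cj)
open Cfsg.Agent.FusionAux.MinParabolic (Constr zOf elemAb_sq)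
open scoped commutatorElement

universe u

variable {G : Type u} [Group G] [Finite G]

/-- The maximal elementary subgroups centralize a good normal subgroup. -/
theorem maxElem_le_centralizer [Fact (Nat.Prime 2)] {U V : Subgroup G} (hV : Cfsg.IsElementaryAbelian 2 V)
    (hVU : V ≤ U) (hg : EGood V U) {A : Subgroup G} (hA : A ∈ Modules.maxElemAbIn 2 U) :
    A ≤ Subgroup.centralizer (V : Set G) := by
  set C := Subgroup.centralizer (V : Set G)
  by_contra hAC
  obtain ⟨h1, -⟩ := hg A hA.1 (by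
    rw [Subgroup.commutator_le]
    intro a ha b hb
    have hab : Commute a b := Modules.elemAb_comm hA.2.1 ha hb
    rw [hab.commutator_eq]
    exact one_mem _) (fun a ha => by rw [hA.2.1.2 a ha]; exact one_mem _) hAC
  set k := Nat.card (A ⊓ C : Subgroup G) with hk
  set c := Nat.card (V ⊓ Subgroup.centralizer (A : Set G) : Subgroup G) with hc
  have he : Cfsg.IsElementaryAbelian 2 (A ⊓ C ⊔ V) :=
    Modules.elemAb_sup (Modules.elemAb_mono inf_le_left hA.2.1) hV
      (Subgroup.le_centralizer_iff.1 inf_le_right)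
  have h2 := hA.2.2 _ (sup_le (inf_le_left.trans hA.1) hVU) he
  have h3 := Modules.card_sup_mul_card_inf (B := A ⊓ C) (V := V)
    (inf_le_right.trans (Subgroup.centralizer_le_normalizer _))
  have h4 : Nat.card (A ⊓ C ⊓ V : Subgroup G) ≤ c :=
    Subgroup.card_le_of_le fun x hx => ⟨hx.2, Subgroup.mem_centralizer_iff.2 fun a ha =>
      Modules.elemAb_comm hA.2.1 ha hx.1.1⟩
  have hvk : Nat.card V * k ≤ Nat.card A * c := by
    calc Nat.card V * k = k * Nat.card V := mul_comm _ _
      _ = _ := h3.symm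
      _ ≤ Nat.card A * c := Nat.mul_le_mul h2 h4
  have hka : k ≤ Nat.card A := Subgroup.card_le_of_le inf_le_left
  refine absurd h1 (not_lt.2 ?_)
  calc Nat.card V ^ 2 * k ^ 3 = (Nat.card V * k) ^ 2 * k := by ring
    _ ≤ (Nat.card A * c) ^ 2 * Nat.card A := Nat.mul_le_mul (Nat.pow_le_pow_left hvk 2) hka
    _ = _ := by ring

/-- The Thompson subgroup is an E-group. -/
theorem eGrp_thompson [Fact (Nat.Prime 2)] (S : Subgroup G) :
    EGrp (Cfsg.thompsonSubgroupOf 2 S) := by
  intro V hVJ _ hV hg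
  set J := Cfsg.thompsonSubgroupOf 2 S with hJ
  have hle : J ≤ S := Modules.thompsonSubgroupOf_le 2 S
  rw [hJ, Modules.thompsonSubgroupOf_eq_sSup]
  refine sSup_le fun A hA => maxElem_le_centralizer hV hVJ hg ?_
  rw [Modules.maxElemAbIn_eq_of_thompson_le hle le_rfl]
  exact hA

theorem thompson_mem_eSet [Fact (Nat.Prime 2)] (S : Subgroup G) :
    Cfsg.thompsonSubgroupOf 2 S ∈ eSet S :=
  ⟨Modules.thompsonSubgroupOf_le 2 S, eGrp_thompson S, le_rfl⟩

theorem thompson_le_jH [Fact (Nat.Prime 2)] (S : Subgroup G) :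
    Cfsg.thompsonSubgroupOf 2 S ≤ jH S := le_sSup (thompson_mem_eSet S)

theorem mem_wSub {S : Subgroup G} {v : G} (hv : v ∈ jH S)
    (hc : jH S ≤ Subgroup.centralizer ({v} : Set G)) (h2 : v ^ 2 = 1) : v ∈ wSub S := by
  refine Subgroup.subset_closure ⟨⟨hv, Subgroup.mem_centralizer_iff.2 fun x hx => ?_⟩, h2⟩
  exact Subgroup.mem_centralizer_singleton_iff.1 (hc hx)

theorem elemAb_wSub (S : Subgroup G) : Cfsg.IsElementaryAbelian 2 (wSub S) :=
  ⟨⟨⟨fun a b => Subtype.ext (Subgroup.mem_centralizer_iff.1 ((CF.omZ_le_inf 2 (jH S)) b.2).2 a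
    (CF.omZ_le 2 (jH S) a.2))⟩⟩, fun a ha => CF.pow_eq_one_of_mem_omZ (P := jH S) a ha⟩

/-- `W` is contained in the corresponding subgroup of every intermediate group above `J`. -/
theorem wSub_le_of_le [Fact (Nat.Prime 2)] {S T : Subgroup G} (hTS : T ≤ S)
    (hJT : Cfsg.thompsonSubgroupOf 2 S ≤ T) : wSub S ≤ wSub T := by
  have hJe := Modules.thompsonSubgroupOf_eq_of_le hTS hJT
  have hle : jH T ≤ jH S := sSup_le fun U hU =>
    le_sSup ⟨hU.1.trans hTS, hU.2.1, hJe ▸ hU.2.2⟩
  obtain ⟨A, hA⟩ := Modules.maxElemAbIn_nonempty 2 S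
  have hAJ := Modules.le_thompsonSubgroupOf hA
  have hWC : ∀ w ∈ wSub S, jH S ≤ Subgroup.centralizer ({w} : Set G) := fun w hw x hx =>
    Subgroup.mem_centralizer_singleton_iff.2
      (Subgroup.mem_centralizer_iff.1 ((CF.omZ_le_inf 2 (jH S)) hw).2 x hx)
  have hWA : wSub S ≤ A := le_of_maxElem (elemAb_wSub S) ((CF.omZ_le 2 (jH S)).trans (jH_le S)) hA
    fun a ha => Subgroup.mem_centralizer_iff.2 fun w hw =>
      (Subgroup.mem_centralizer_singleton_iff.1 (hWC w hw ((hAJ.trans (thompson_le_jH S)) ha))).symm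
  intro w hw
  refine mem_wSub ((thompson_le_jH T) (hJe.symm ▸ hAJ (hWA hw))) (hle.trans (hWC w hw))
    ((elemAb_wSub S).2 w hw)

theorem hyp_of_normal [Fact (Nat.Prime 2)] (hG : Hyp G) (H : Subgroup G) [hH : H.Normal] :
    Hyp H := by
  refine ⟨?_, fun h => hG.free (EvenLocal.involves_subgroup h),
    secK_of_injective H.subtype_injective hG.sec⟩
  set Q := Cfsg.pCore 2 G
  haveI hQn : Q.Normal := Cores.pCore_normal_inst (p := 2) G
  have h1 : Q.subgroupOf H ≤ Cfsg.pCore 2 H :=
    Cores.le_pCore inferInstance Cores.pCore_isPGroup.comap_subtype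
  refine Cores.le_pCore inferInstance fun x => ?_
  obtain ⟨k, m, hm, hkm⟩ : ∃ k m : ℕ, ¬ 2 ∣ m ∧ orderOf ((x : H) : G) = 2 ^ k * m :=
    ⟨_, _, Nat.not_dvd_ordCompl Nat.prime_two (orderOf_pos _).ne',
      (Nat.ordProj_mul_ordCompl_eq_self (orderOf _) 2).symm⟩
  refine ⟨k, Subtype.ext (Subtype.ext ?_)⟩
  set y := ((x : H) : G) ^ 2 ^ k with hy
  show y = 1
  have hodd : Odd (orderOf y) := by
    rw [hy, orderOf_pow' _ (by positivity), hkm, Nat.gcd_eq_right (dvd_mul_right _ _),
      Nat.mul_div_cancel_left _ (by positivity)]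
    exact Nat.odd_iff.2 (Nat.two_dvd_ne_zero.1 hm)
  have hyH : y ∈ H := pow_mem (x : H).2 _
  have hyQ : y ∈ Q := hG.constr (Subgroup.mem_centralizer_iff.2 fun q hq => by
    have hzQ : y * q * y⁻¹ * q⁻¹ ∈ Q := Q.mul_mem (hQn.conj_mem q hq y) (Q.inv_mem hq)
    have hzH : y * q * y⁻¹ * q⁻¹ ∈ H := by
      rw [show y * q * y⁻¹ * q⁻¹ = y * (q * y⁻¹ * q⁻¹) by group]
      exact H.mul_mem hyH (hH.conj_mem _ (H.inv_mem hyH) q)
    have hc : ∀ z : H, z ∈ Cfsg.pCore 2 H → z * (x : H) ^ 2 ^ k = (x : H) ^ 2 ^ k * z :=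
      fun z hz => Subgroup.mem_centralizer_iff.1 (pow_mem x.2 _) z hz
    have hz : Commute y (y * q * y⁻¹ * q⁻¹) := by
      have := congrArg Subtype.val (hc ⟨_, hzH⟩ (h1 (Subgroup.mem_subgroupOf.2 hzQ)))
      simpa [Commute, SemiconjBy, hy] using this.symm
    obtain ⟨j, hj⟩ := (Cores.pCore_isPGroup (p := 2) (G := G)) ⟨_, hzQ⟩
    exact (CF.commute_of_fixed_quot hodd hz ⟨j, congrArg Subtype.val hj⟩).symm)
  obtain ⟨j, hj⟩ := (Cores.pCore_isPGroup (p := 2) (G := G)) ⟨y, hyQ⟩
  have hj' : y ^ 2 ^ j = 1 := congrArg Subtype.val hj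
  have h := orderOf_dvd_of_pow_eq_one hj'
  obtain ⟨i, -, hi⟩ := (Nat.dvd_prime_pow Nat.prime_two).1 h
  rw [← orderOf_eq_one_iff, hi]
  rcases Nat.eq_zero_or_pos i with rfl | hi0
  · rfl
  · rw [hi, Nat.odd_pow_iff hi0.ne'] at hodd
    exact absurd hodd (by decide)

/-- Conjugates of a good subgroup inside the 2-core commute. -/
theorem cj_le_centralizer [Fact (Nat.Prime 2)] {Q S V : Subgroup G} [hQn : Q.Normal] (hQS : Q ≤ S)
    (hVQ : V ≤ Q) (hV : Cfsg.IsElementaryAbelian 2 V) (hg : EGood V S) (g : G) :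
    cj g V ≤ Subgroup.centralizer (V : Set G) := by
  set W := cj g V with hWdef
  have hW : Cfsg.IsElementaryAbelian 2 W := elemAb_cj hV g
  have hWQ : W ≤ Q := by
    rintro _ ⟨v, hv, rfl⟩
    exact hQn.conj_mem v (hVQ hv) g
  have hgW : EGood W (cj g S) := (eGood_map (MulAut.conj g).injective).2 hg
  have hVS' : V ≤ cj g S := fun q hq => mem_cj.2 (hQS (by
    simpa using hQn.conj_mem q (hVQ hq) g⁻¹))
  have key : ∀ X Y U : Subgroup G, Cfsg.IsElementaryAbelian 2 X → EGood Y U → X ≤ U →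
      Nat.card X = Nat.card Y → ¬ X ≤ Subgroup.centralizer (Y : Set G) →
      Nat.card (Y ⊓ Subgroup.centralizer (X : Set G) : Subgroup G) <
        Nat.card (X ⊓ Subgroup.centralizer (Y : Set G) : Subgroup G) := by
    intro X Y U hX hY hXU hcard hn
    obtain ⟨h1, -⟩ := hY X hXU (by
      rw [Subgroup.commutator_le]
      intro a ha b hb
      have hab : Commute a b := Modules.elemAb_comm hX ha hb
      rw [hab.commutator_eq]
      exact one_mem _) (fun r hr => by rw [hX.2 r hr]; exact one_mem _) hn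
    rw [hcard] at h1
    set k1 := Nat.card (X ⊓ Subgroup.centralizer (Y : Set G) : Subgroup G)
    set k2 := Nat.card (Y ⊓ Subgroup.centralizer (X : Set G) : Subgroup G)
    by_contra hcon
    rw [not_lt] at hcon
    have hk1 : k1 ≤ Nat.card Y := hcard ▸ Subgroup.card_le_of_le inf_le_left
    refine absurd h1 (not_lt.2 ?_)
    calc Nat.card Y ^ 2 * k1 ^ 3 = Nat.card Y ^ 2 * k1 * k1 ^ 2 := by ring
      _ ≤ Nat.card Y ^ 2 * Nat.card Y * k2 ^ 2 := Nat.mul_le_mul
          (Nat.mul_le_mul_left _ hk1) (Nat.pow_le_pow_left hcon 2)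
      _ = _ := by ring
  by_contra hn
  have h1 := key W V S hW hg (hWQ.trans hQS) (card_cj g V) hn
  have h2 := key V W (cj g S) hV hgW hVS' (card_cj g V).symm
    fun h => hn (Subgroup.le_centralizer_iff.1 h)
  omega

/-- Products through `C(Ω₁Z(Ĵ(S)))` and `N(J(S))`, transferred from a subgroup. -/
theorem exists_mul_of_subgroup {H : Subgroup G} {P : Subgroup H} {S : Subgroup G}
    (hJ : Cfsg.thompsonSubgroupOf 2 (P.map H.subtype) = Cfsg.thompsonSubgroupOf 2 S)
    (hW : wSub S ≤ wSub (P.map H.subtype)) {h : H}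
    (hfac : ∃ c ∈ Subgroup.centralizer (wSub P : Set H),
      ∃ m ∈ Nz (Cfsg.thompsonSubgroupOf 2 P), h = c * m) :
    ∃ c ∈ Subgroup.centralizer (wSub S : Set G),
      ∃ m ∈ Nz (Cfsg.thompsonSubgroupOf 2 S), (h : G) = c * m := by
  obtain ⟨c, hc, m, hm, rfl⟩ := hfac
  refine ⟨c, Subgroup.centralizer_le hW ?_, m, ?_, rfl⟩
  · rw [wSub_map H.subtype_injective]
    exact (map_mem_centralizer H.subtype_injective).2 hc
  · rw [← hJ, ← Modules.map_thompsonSubgroupOf H.subtype_injective]
    exact CF.mem_Nz_map.1 hm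

/-- The third factorisation. -/
theorem exists_mul_wSub (hB : TwoBound.{u}) (hSp : SpreadFact.{u})
    (hIn : InnerFact.{u}) :
    ∀ (n : ℕ) {G : Type u} [Group G] [Finite G], Nat.card G ≤ n → Hyp G →
    ∀ (S : Sylow 2 G) (g : G), ∃ c ∈ Subgroup.centralizer (wSub (S : Subgroup G) : Set G),
      ∃ m ∈ Nz (Cfsg.thompsonSubgroupOf 2 (S : Subgroup G)), g = c * m := by
  haveI : Fact (Nat.Prime 2) := ⟨Nat.prime_two⟩
  intro n
  induction n with
  | zero => intro G _ _ h; exact absurd h (not_le.2 Nat.card_pos)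
  | succ n ih =>
    intro G _ _ hn hG S g
    set J := Cfsg.thompsonSubgroupOf 2 (S : Subgroup G) with hJdef
    have hcl : ∀ H : Subgroup G, H ≠ ⊤ → Nat.card H ≤ n := fun H hH => by
      have h := FusionAux.NoOffender.card_lt_of_lt (hH.lt_top)
      rw [Subgroup.card_top] at h
      omega
    obtain ⟨C, hCn, hCz, hJC, -⟩ := exists_core hB hG S
    obtain ⟨c, hc, y, rfl, hyJ, -⟩ := exists_frattini S hCn hJC g
    set H := C ⊔ (S : Subgroup G) with hH
    have hSH : (S : Subgroup G) ≤ H := le_sup_right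
    by_cases hHtop : H ≠ ⊤
    · have e : ((S.subtype hSH : Sylow 2 H) : Subgroup H).map H.subtype = (S : Subgroup G) := by
        show ((S : Subgroup G).subgroupOf H).map H.subtype = _
        rw [Subgroup.map_subgroupOf_eq_of_le hSH]
      obtain ⟨a, ha, b, hb, hab⟩ := exists_mul_of_subgroup (S := (S : Subgroup G)) (by rw [e])
        (by rw [e]) (ih (hcl H hHtop) (hyp_of_sylow_le hG hSH) (S.subtype hSH)
          ⟨c, le_sup_left (α := Subgroup G) hc⟩)
      exact ⟨a, ha, b * y, mul_mem hb hyJ, by rw [← mul_assoc, ← hab]⟩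
    rw [not_not] at hHtop
    have hcentral : ∀ z ∈ omZ 2 (S : Subgroup G), ∀ x : G, x * z = z * x := fun z hz x => by
      have hle : H ≤ Subgroup.centralizer ({z} : Set G) := sup_le (fun a ha =>
        Subgroup.mem_centralizer_singleton_iff.2
          (Subgroup.mem_centralizer_iff.1 (hCz ha) z ((CF.omZ_le_inf 2 _) hz)).symm)
        fun a ha => Subgroup.mem_centralizer_singleton_iff.2
          (Subgroup.mem_centralizer_iff.1 ((CF.omZ_le_inf 2 _) hz).2 a ha)
      exact Subgroup.mem_centralizer_singleton_iff.1 (hle (hHtop.ge (Subgroup.mem_top x)))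
    by_cases hE : EGrp (S : Subgroup G)
    · have hjS : jH (S : Subgroup G) = (S : Subgroup G) := le_antisymm (jH_le _)
        (le_sSup ⟨le_rfl, hE, Modules.thompsonSubgroupOf_le 2 _⟩)
      refine ⟨c * y, Subgroup.mem_centralizer_iff.2 fun z hz => ?_, 1, one_mem _, (mul_one _).symm⟩
      rw [wSub, hjS] at hz
      exact (hcentral z hz _).symm
    simp only [EGrp, not_forall] at hE
    obtain ⟨V, hVS, hVn, hV, hgood, hnc⟩ := hE
    have hVQ := le_pCore_of_eGood hB hSp hIn (Nat.card G) le_rfl hG S hVS hVn hV hgood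
    set Q := Cfsg.pCore 2 G
    haveI hQn : Q.Normal := Cores.pCore_normal_inst (p := 2) G
    have hQS : Q ≤ (S : Subgroup G) := Cores.pCore_le_sylow S
    -- the normal closure is elementary abelian
    set X := Subgroup.normalClosure (V : Set G) with hX
    haveI hXn : X.Normal := Subgroup.normalClosure_normal
    have hconj : ∀ a ∈ Group.conjugatesOfSet (V : Set G), ∃ k : G, a ∈ cj k V := fun a ha => by
      obtain ⟨v, hv, hc⟩ := Group.mem_conjugatesOfSet_iff.1 ha
      obtain ⟨k, rfl⟩ := isConj_iff.1 hc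
      exact ⟨k, conj_mem_cj.2 hv⟩
    have hcomm : ∀ k l : G, cj l V ≤ Subgroup.centralizer (cj k V : Set G) := fun k l => by
      have h := cj_le_centralizer hQS hVQ hV hgood (k⁻¹ * l)
      have h2 := (map_le_centralizer_map (f := (MulAut.conj k).toMonoidHom)
        (MulAut.conj k).injective).2 h
      change cj k (cj (k⁻¹ * l) V) ≤ Subgroup.centralizer (cj k V : Set G) at h2
      rwa [Fusion.cj_cj, mul_inv_cancel_left] at h2
    have hXC : X ≤ Subgroup.centralizer (X : Set G) := by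
      refine (Subgroup.closure_le _).2 fun a ha => ?_
      rw [SetLike.mem_coe, Subgroup.mem_centralizer_iff]
      intro x hx
      have hle : X ≤ Subgroup.centralizer ({a} : Set G) := (Subgroup.closure_le _).2 fun b hb => by
        obtain ⟨k, hk⟩ := hconj a ha
        obtain ⟨l, hl⟩ := hconj b hb
        exact Subgroup.mem_centralizer_singleton_iff.2
          (Subgroup.mem_centralizer_iff.1 (hcomm k l hl) a hk).symm
      exact Subgroup.mem_centralizer_singleton_iff.1 (hle hx)
    haveI : IsMulCommutative X := ⟨⟨fun a b =>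
      Subtype.ext (Subgroup.mem_centralizer_iff.1 (hXC b.2) a a.2)⟩⟩
    have hX2 : ∀ x ∈ X, x ^ 2 = 1 := fun x hx => by
      induction hx using Subgroup.closure_induction with
      | mem a ha =>
        obtain ⟨k, hk⟩ := hconj a ha
        exact (elemAb_cj hV k).2 a hk
      | one => exact one_pow _
      | mul a b ha hb iha ihb =>
        have hab : Commute a b := Subgroup.mem_centralizer_iff.1 (hXC hb) a ha
        rw [hab.mul_pow, iha, ihb, one_mul]
      | inv a _ iha => rw [inv_pow, iha, inv_one]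
    have hXQ : X ≤ Q := Subgroup.normalClosure_le_normal hVQ
    have hVX : V ≤ X := Subgroup.le_normalClosure
    set D := Subgroup.centralizer (X : Set G) with hD
    haveI hDn : D.Normal := by rw [hD]; infer_instance
    set π := QuotientGroup.mk' D with hπ
    have hπs : Function.Surjective π := QuotientGroup.mk'_surjective D
    have hS3 : ¬ Cfsg.Involves (Equiv.Perm (Fin 3)) (G ⧸ D) :=
      CF.not_involves_three X (IsPGroup.to_le Cores.pCore_isPGroup hXQ) hG.free
    have hM : ∀ x : X, x * x = 1 := fun x => Subtype.ext (by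
      show (x : G) * x = 1; rw [← sq]; exact hX2 x x.2)
    set φ := actHom X with hφ
    set T : Sylow 2 (G ⧸ D) := S.mapSurjective hπs with hT
    have hmemfix : ∀ r : G, π r ∈ OffThm.fixer φ (V.subgroupOf X) ↔
        r ∈ Subgroup.centralizer (V : Set G) := fun r => by
      refine ⟨fun h => Subgroup.mem_centralizer_iff.2 fun v hv => ?_, fun h v hv => Subtype.ext ?_⟩
      · have e := congrArg Subtype.val (h ⟨v, hVX hv⟩ (Subgroup.mem_subgroupOf.2 hv))
        exact (mul_inv_eq_iff_eq_mul.1 ((CF.actHom_mk X r _).symm.trans e)).symm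
      · exact (CF.actHom_mk X r v).trans (mul_inv_eq_iff_eq_mul.2
          (Subgroup.mem_centralizer_iff.1 h v (Subgroup.mem_subgroupOf.1 hv)).symm)
    have hGood : OffThm.Good φ (T : Subgroup (G ⧸ D)) (V.subgroupOf X) := by
      intro A hA hsq hm
      set R := A.comap π ⊓ (S : Subgroup G) with hR
      have hRA : R.map π = A := by
        refine le_antisymm ((Subgroup.map_mono inf_le_left).trans (Subgroup.map_comap_le _ _))
          fun a ha => ?_
        obtain ⟨s, hs, rfl⟩ := hA ha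
        exact ⟨s, ⟨ha, hs⟩, rfl⟩
      have hsqR : ∀ r ∈ R, r ^ 2 ∈ Subgroup.centralizer (V : Set G) := fun r hr => by
        rw [← hmemfix, map_pow, sq]
        exact hsq _ hr.1
      obtain ⟨h1, -⟩ := hgood R inf_le_right (by
        rw [Subgroup.commutator_le]
        intro a ha b hb
        rw [show ⁅a, b⁆ = a ^ 2 * (a⁻¹ * b) ^ 2 * b⁻¹ ^ 2 by
          rw [commutatorElement_def, sq, sq, sq]; group]
        exact mul_mem (mul_mem (hsqR a ha) (hsqR _ (mul_mem (inv_mem ha) hb)))
          (hsqR _ (inv_mem hb))) hsqR (fun h => hm fun a ha => by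
        obtain ⟨r, hr, rfl⟩ := hRA.ge ha
        exact (hmemfix r).2 (h hr))
      have hr : Nat.card A * Nat.card (R ⊓ D : Subgroup G) = Nat.card R := by
        have h := OffThm.card_map_mul_card_inf_ker π R
        rwa [hRA, hπ, QuotientGroup.ker_mk'] at h
      have hk : Nat.card (A ⊓ OffThm.fixer φ (V.subgroupOf X) : Subgroup (G ⧸ D)) *
          Nat.card (R ⊓ D : Subgroup G) =
          Nat.card (R ⊓ Subgroup.centralizer (V : Set G) : Subgroup G) := by
        have h := OffThm.card_map_mul_card_inf_ker π (R ⊓ Subgroup.centralizer (V : Set G))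
        have hDV : R ⊓ Subgroup.centralizer (V : Set G) ⊓ D = R ⊓ D := by
          rw [inf_assoc, inf_eq_right.2 (Subgroup.centralizer_le (fun v hv => hVX hv) :
            D ≤ Subgroup.centralizer (V : Set G))]
        rw [hπ, QuotientGroup.ker_mk', ← hπ, hDV] at h
        rw [← h]
        congr 3
        ext q
        constructor
        · rintro ⟨hq, hq'⟩
          obtain ⟨r, hr, rfl⟩ := hRA.ge hq
          exact ⟨r, ⟨hr, (hmemfix r).1 hq'⟩, rfl⟩
        · rintro ⟨r, ⟨hr, hr'⟩, rfl⟩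
          exact ⟨hRA.le ⟨r, hr, rfl⟩, (hmemfix r).2 hr'⟩
      have hc : Nat.card (V.subgroupOf X ⊓ fixSub φ A : Subgroup X) =
          Nat.card (V ⊓ Subgroup.centralizer (R : Set G) : Subgroup G) := by
        rw [← Subgroup.card_map_of_injective X.subtype_injective]
        refine congrArg (fun Z : Subgroup G => Nat.card Z) ?_
        ext x
        constructor
        · rintro ⟨v, ⟨hv, hv'⟩, rfl⟩
          refine ⟨hv, Subgroup.mem_centralizer_iff.2 fun r hr => ?_⟩
          have e := congrArg Subtype.val (hv' (π r) (hRA.le ⟨r, hr, rfl⟩))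
          exact mul_inv_eq_iff_eq_mul.1 ((CF.actHom_mk X r v).symm.trans e)
        · rintro ⟨hx, hx'⟩
          refine ⟨⟨x, hVX hx⟩, ⟨hx, fun a ha => ?_⟩, rfl⟩
          obtain ⟨r, hr, rfl⟩ := hRA.ge ha
          exact Subtype.ext ((CF.actHom_mk X r _).trans
            (mul_inv_eq_iff_eq_mul.2 (Subgroup.mem_centralizer_iff.1 hx' r hr)))
      have hv : Nat.card (V.subgroupOf X) = Nat.card V :=
        Nat.card_congr (Subgroup.subgroupOfEquivOfLe hVX).toEquiv
      rw [hc, hv]
      rw [← hr, ← hk] at h1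
      set a := Nat.card A
      set a1 := Nat.card (A ⊓ OffThm.fixer φ (V.subgroupOf X) : Subgroup (G ⧸ D))
      set v := Nat.card V
      set kk := Nat.card (R ⊓ D : Subgroup G)
      set cc := Nat.card (V ⊓ Subgroup.centralizer (R : Set G) : Subgroup G)
      have ha1 : a1 ≤ a := Subgroup.card_le_of_le inf_le_left
      by_contra hcon
      rw [not_lt] at hcon
      refine absurd h1 (not_lt.2 ?_)
      calc v ^ 2 * (a1 * kk) ^ 3 = (a1 * v) ^ 2 * a1 * kk ^ 3 := by ring
        _ ≤ (a * cc) ^ 2 * a * kk ^ 3 := by gcongr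
        _ = _ := by ring
    -- no offender on the normal closure
    set Y := OffThm.maxGood φ (T : Subgroup (G ⧸ D))
    have hYtop : Y = ⊤ := by
      have hVY : V.subgroupOf X ≤ Y := OffThm.le_maxGood hGood
      haveI : (Y.map X.subtype).Normal := ⟨by
        rintro _ ⟨x, hx, rfl⟩ k
        have hk := OffThm.le_stabSub φ hM hS3 T ⊤ le_top (Subgroup.mem_top (π k))
        obtain ⟨z, hz⟩ : ∃ z, z = φ (π k) x := ⟨_, rfl⟩
        refine ⟨z, (show OffThm.tr φ (π k) Y = Y from hk).le ⟨x, hx, hz.symm⟩, ?_⟩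
        rw [hz]
        exact CF.actHom_mk X k x⟩
      refine eq_top_iff.2 fun x _ => ?_
      obtain ⟨x', hx', he⟩ := (Subgroup.normalClosure_le_normal
        (fun v hv => ⟨⟨v, hVX hv⟩, hVY (Subgroup.mem_subgroupOf.2 hv), rfl⟩) :
          X ≤ Y.map X.subtype) x.2
      rwa [← Subtype.ext (he : (x' : G) = x)]
    have hJD : J ≤ D := by
      rw [hJdef, Modules.thompsonSubgroupOf_eq_sSup]
      refine sSup_le ?_
      rintro A ⟨hAS, hA, hmax⟩
      by_contra hAD
      refine OffThm.not_isOff_of_good (φ := φ) (CF.actHom_injective X)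
        (hYtop ▸ OffThm.good_maxGood φ (T : Subgroup (G ⧸ D))) (Subgroup.map_mono hAS :
          A.map π ≤ (T : Subgroup (G ⧸ D))) ⟨?_, ?_, ?_⟩
      · rw [Ne, Subgroup.map_eq_bot_iff, QuotientGroup.ker_mk']
        exact hAD
      · rintro _ ⟨a, ha, rfl⟩
        rw [← map_mul, elemAb_sq hA a ha, map_one]
      · exact CF.card_le_of_max X hA (hmax _ (sup_le (inf_le_left.trans hAS) (hXQ.trans hQS))
          (CF.elemAb_competitor X hX2 hA))
    have hDtop : D ≠ ⊤ := fun h => hnc fun s _ => Subgroup.mem_centralizer_iff.2 fun v hv =>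
      Subgroup.mem_centralizer_iff.1 (h.ge (Subgroup.mem_top s)) v (hVX hv)
    obtain ⟨d, hd, z, hdz, hzJ, -⟩ := exists_frattini S hDn hJD (c * y)
    have hsyl := (CF.isSyl_sylow S).inf_normal le_top (Subgroup.normalizer_eq_top_iff.2 hDn).ge
    let P : Sylow 2 D := IsPGroup.toSylow (P := ((S : Subgroup G) ⊓ D).subgroupOf D)
      hsyl.isP.comap_subtype hsyl.idx
    have eP : (P : Subgroup D).map D.subtype = (S : Subgroup G) ⊓ D := by
      show (((S : Subgroup G) ⊓ D).subgroupOf D).map D.subtype = _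
      rw [Subgroup.map_subgroupOf_eq_of_le inf_le_right]
    have hJP : J ≤ (S : Subgroup G) ⊓ D := le_inf (Modules.thompsonSubgroupOf_le 2 _) hJD
    obtain ⟨a, ha, b, hb, hab⟩ := exists_mul_of_subgroup (S := (S : Subgroup G))
      (by rw [eP]; exact Modules.thompsonSubgroupOf_eq_of_le inf_le_left hJP)
      (by rw [eP]; exact wSub_le_of_le inf_le_left hJP)
      (ih (hcl D hDtop) (hyp_of_normal hG D) P ⟨d, hd⟩)
    exact ⟨a, ha, b * z, mul_mem hb hzJ, by rw [hdz, ← mul_assoc, ← hab]⟩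

end Cfsg.Agent.TwoFact
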