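import Cfsg.Agent.TwoFact.FactsDef
import Cfsg.Agent.Subnormal.Join

/-!
An element spreading an elementary subgroup: no involution of it and its conjugate generate a
2-group.
-/

set_option autoImplicit false
set_option linter.unusedSectionVars false
set_option linter.style.haveILetI false

namespace Cfsg.Agent.TwoFact

open Cfsg.Agent.CF (Nz IsSyl)
open Cfsg.Agent.Fusion (cj mem_cj conj_mem_cj card_cj)
open Cfsg.Agent.SubnormalLib (IsMinNormal)

universe u

variable {X : Type u} [Group X]

/-- The element `x` spreads `u`. -/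
def spreadEl (u x : X) : X := u * (x⁻¹ * u * x)

theorem cj_eq_of_normal {N : Subgroup X} [hN : N.Normal] (g : X) : cj g N = N :=
  Fusion.cj_eq_of_mem ((Subgroup.normalizer_eq_top_iff.2 hN).ge (Subgroup.mem_top g))

variable [Finite X]

/-- On an abelian subgroup of odd order some point is moved by every element acting nontrivially. -/
theorem exists_spread_abelian {N A : Subgroup X} [hN : N.Normal]
    (hcomm : ∀ a ∈ N, ∀ b ∈ N, a * b = b * a) (hodd : ∀ z ∈ N, z * z = 1 → z = 1)
    (hA : ∀ a ∈ A, a * a = 1) :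
    ∃ x ∈ N, ∀ u ∈ A, u ∉ Subgroup.centralizer (N : Set X) → NonTwo (spreadEl u x) := by
  classical
  obtain ⟨x, hxN, hxmin⟩ := Set.exists_min_image (N : Set X)
    (fun x => Nat.card (A ⊓ Subgroup.centralizer {x} : Subgroup X)) (Set.toFinite _)
    ⟨1, N.one_mem⟩
  refine ⟨x, hxN, fun u hu huN k hk => ?_⟩
  have hui : u⁻¹ = u := inv_eq_of_mul_eq_one_right (hA u hu)
  have hmem : spreadEl u x ∈ N := by
    have h1 : u * x⁻¹ * u ∈ N := by
      have := hN.conj_mem _ (N.inv_mem hxN) u
      rwa [hui] at this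
    rw [spreadEl, show u * (x⁻¹ * u * x) = u * x⁻¹ * u * x by group]
    exact N.mul_mem h1 hxN
  have hone : ∀ k : ℕ, ∀ z ∈ N, z ^ 2 ^ k = 1 → z = 1 := by
    intro k
    induction k with
    | zero => intro z _ hz; simpa using hz
    | succ k ih =>
      intro z hz h
      rw [pow_succ', pow_mul, sq] at h
      exact hodd z hz (ih _ (N.mul_mem hz hz) h)
  have hux : u * x = x * u := by
    have h1 := hone k _ hmem hk
    rw [spreadEl] at h1
    have h2 : x⁻¹ * u * x = u := by
      rw [eq_inv_of_mul_eq_one_right h1, hui]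
    calc u * x = x * (x⁻¹ * u * x) := by group
      _ = x * u := by rw [h2]
  obtain ⟨z0, hz0, hz0u⟩ : ∃ z ∈ N, u * z ≠ z * u := by
    by_contra h
    push Not at h
    exact huN (Subgroup.mem_centralizer_iff.2 fun z hz => (h z hz).symm)
  set z := u * z0 * u * z0⁻¹ with hz
  have hzN : z ∈ N := by
    have := hN.conj_mem _ hz0 u
    rw [hui] at this
    exact N.mul_mem this (N.inv_mem hz0)
  have hz1 : z ≠ 1 := fun h => hz0u (by
    have h2 : u * z0 * u = z0 := mul_inv_eq_one.1 h
    calc u * z0 = u * z0 * (u * u) := by rw [hA u hu, mul_one]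
      _ = u * z0 * u * u := by group
      _ = z0 * u := by rw [h2])
  have hzinv : u * z * u = z⁻¹ := by
    rw [hz, show u * (u * z0 * u * z0⁻¹) * u = (u * u) * z0 * u * z0⁻¹ * u by group, hA u hu]
    rw [mul_inv_rev, mul_inv_rev, mul_inv_rev, inv_inv, hui]
    group
  have hsub : A ⊓ Subgroup.centralizer {x * z} < A ⊓ Subgroup.centralizer {x} := by
    refine lt_of_le_of_ne (fun b hb => ⟨hb.1, ?_⟩) fun e => ?_
    · have hb' := Subgroup.mem_centralizer_singleton_iff.1 hb.2
      have hbu : b * u = u * b := FusionAux.NoOffender.commute_of_sq hA hb.1 hu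
      have hbc : Commute b (x * z) := hb'
      have h1 : Commute b (u * (x * z) * u) :=
        ((show Commute b u from hbu).mul_right hbc).mul_right hbu
      rw [show u * (x * z) * u = (u * x * u) * (u * z * u) by
        calc u * (x * z) * u = u * x * 1 * z * u := by group
          _ = u * x * (u * u) * z * u := by rw [hA u hu]
          _ = _ := by group, hzinv, show u * x * u = x by
        rw [hux, mul_assoc, hA u hu, mul_one]] at h1
      have h2 : Commute b (z * z) := by
        have := h1.inv_right.mul_right hbc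
        rwa [mul_inv_rev, inv_inv, show z * x⁻¹ * (x * z) = z * z by group] at this
      have h3 : Commute b z := by
        have hzo : Odd (orderOf z) := by
          by_contra he
          rw [Nat.not_odd_iff_even] at he
          obtain ⟨j, hj⟩ := he
          have hpow : (z ^ j) * (z ^ j) = 1 := by rw [← pow_add, ← hj, pow_orderOf_eq_one]
          have := hodd _ (N.pow_mem hzN j) hpow
          have hj0 : 0 < j := by have := orderOf_pos z; omega
          have := Nat.le_of_dvd hj0 (orderOf_dvd_of_pow_eq_one this)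
          omega
        obtain ⟨j, hj⟩ := hzo
        have : z = (z * z) ^ (j + 1) := by
          rw [← sq, ← pow_mul, show 2 * (j + 1) = orderOf z + 1 by omega, pow_succ,
            pow_orderOf_eq_one, one_mul]
        rw [this]
        exact h2.pow_right _
      refine Subgroup.mem_centralizer_singleton_iff.2 ?_
      have := hbc.mul_right h3.inv_right
      rwa [mul_inv_cancel_right] at this
    · have huz : u ∈ A ⊓ Subgroup.centralizer {x * z} :=
        e.ge ⟨hu, Subgroup.mem_centralizer_singleton_iff.2 hux⟩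
      have h1 := Subgroup.mem_centralizer_singleton_iff.1 huz.2
      refine hz1 (hodd z hzN (mul_eq_one_iff_eq_inv.2 ?_))
      rw [← hzinv]
      refine mul_left_cancel (a := x) ?_
      calc x * z = x * z * (u * u) := by rw [hA u hu, mul_one]
        _ = x * z * u * u := by group
        _ = u * (x * z) * u := by rw [h1]
        _ = (u * x) * z * u := by group
        _ = x * (u * z * u) := by rw [hux]; group
  exact (hxmin (x * z) (N.mul_mem hxN hzN)).not_gt (FusionAux.NoOffender.card_lt_of_lt hsub)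

/-- A subgroup minimal among those normalised by `N`. -/
def MinIn (N T : Subgroup X) : Prop :=
  T ≠ ⊥ ∧ T ≤ N ∧ N ≤ Nz T ∧ ∀ K ≤ T, N ≤ Nz K → K = ⊥ ∨ K = T

theorem exists_minIn {N K : Subgroup X} (hK : K ≠ ⊥) (hKN : K ≤ N) (hn : N ≤ Nz K) :
    ∃ T ≤ K, MinIn N T := by
  obtain ⟨T, hTK, hT⟩ := Finite.exists_le_minimal (a := K)
    (p := fun L : Subgroup X => L ≠ ⊥ ∧ L ≤ N ∧ N ≤ Nz L) ⟨hK, hKN, hn⟩
  refine ⟨T, hTK, hT.1.1, hT.1.2.1, hT.1.2.2, fun L hL hLn => ?_⟩
  exact (em (L = ⊥)).imp id fun h => le_antisymm hL (hT.2 ⟨h, hL.trans hT.1.2.1, hLn⟩ hL)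

theorem MinIn.cj {N T : Subgroup X} [N.Normal] (h : MinIn N T) (g : X) : MinIn N (Fusion.cj g T) := by
  refine ⟨CF.cj_ne_bot h.1, ?_, ?_, fun K hK hKn => ?_⟩
  · exact (Fusion.cj_mono g h.2.1).trans (cj_eq_of_normal g).le
  · refine (cj_eq_of_normal (N := N) g).ge.trans ?_
    exact (Fusion.cj_mono g h.2.2.1).trans (Subgroup.le_normalizer_map _)
  · have h1 : Fusion.cj g⁻¹ K ≤ T := by
      have := Fusion.cj_mono g⁻¹ hK
      rwa [Fusion.cj_inv_cj] at this
    have h2 : N ≤ Nz (Fusion.cj g⁻¹ K) := (cj_eq_of_normal (N := N) g⁻¹).ge.trans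
      ((Fusion.cj_mono g⁻¹ hKn).trans (Subgroup.le_normalizer_map _))
    have e : Fusion.cj g (Fusion.cj g⁻¹ K) = K := by rw [Fusion.cj_cj, mul_inv_cancel, Fusion.cj_one]
    rcases h.2.2.2 _ h1 h2 with h3 | h3
    · left; rw [← e, h3]; exact Subgroup.map_bot _
    · right; rw [← e, h3]

theorem MinIn.commute {N T T' : Subgroup X} (h : MinIn N T) (h' : MinIn N T') (hne : T ≠ T')
    {a b : X} (ha : a ∈ T) (hb : b ∈ T') : a * b = b * a := by
  have hinf : T ⊓ T' = ⊥ := by
    have hn : N ≤ Nz (T ⊓ T') := fun n hn => CF.mem_Nz.2 (by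
      rw [Fusion.cj, Subgroup.map_inf _ _ _ (MulAut.conj n).injective]
      exact congrArg₂ (· ⊓ ·) (Fusion.cj_eq_of_mem (h.2.2.1 hn))
        (Fusion.cj_eq_of_mem (h'.2.2.1 hn)))
    rcases h.2.2.2 _ inf_le_left hn with h1 | h1
    · exact h1
    · rcases h'.2.2.2 _ inf_le_right hn with h2 | h2
      · exact h2
      · exact absurd (h1.symm.trans h2) hne
  have h1 : a * b * a⁻¹ * b⁻¹ ∈ T ⊓ T' := by
    refine ⟨?_, ?_⟩
    · rw [show a * b * a⁻¹ * b⁻¹ = a * (b * a⁻¹ * b⁻¹) by group]
      exact T.mul_mem ha ((Subgroup.mem_normalizer_iff.1 (h.2.2.1 (h'.2.1 hb)) _).1 (T.inv_mem ha))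
    · exact T'.mul_mem ((Subgroup.mem_normalizer_iff.1 (h'.2.2.1 (h.2.1 ha)) _).1 hb) (T'.inv_mem hb)
  rw [hinf, Subgroup.mem_bot] at h1
  calc a * b = a * b * a⁻¹ * b⁻¹ * (b * a) := by group
    _ = b * a := by rw [h1, one_mul]

/-- The facts about a minimal normal subgroup of a nonabelian one. -/
theorem minIn_facts {N : Subgroup X} (hN : IsMinNormal N)
    (hnab : ¬ ∀ a ∈ N, ∀ b ∈ N, a * b = b * a) :
    sSup {T | MinIn N T} = N ∧ (N ⊓ Subgroup.centralizer (N : Set X) = ⊥) ∧
      ∀ T, MinIn N T → IsSimpleGroup T ∧ ¬ IsMulCommutative T ∧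
        T ⊓ Subgroup.centralizer (T : Set X) = ⊥ := by
  haveI := hN.1
  have hsup : sSup {T | MinIn N T} = N := by
    have hn : (sSup {T | MinIn N T}).Normal := by
      refine Subgroup.normalizer_eq_top_iff.1 (eq_top_iff.2 fun g _ => ?_)
      refine CF.mem_Nz.2 (Subgroup.eq_of_le_of_card_ge ?_ (card_cj _ _).ge)
      rw [Fusion.cj, Subgroup.map_le_iff_le_comap]
      refine sSup_le fun T hT => ?_
      rw [← Subgroup.map_le_iff_le_comap]
      exact le_sSup (MinIn.cj hT g)
    rcases hN.2.2 _ hn (sSup_le fun T hT => hT.2.1) with h | h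
    · obtain ⟨T, -, hT⟩ := exists_minIn hN.2.1 le_rfl Subgroup.le_normalizer
      exact absurd (le_bot_iff.1 ((le_sSup (show T ∈ {T | MinIn N T} from hT)).trans h.le)) hT.1
    · exact h
  have hZ : N ⊓ Subgroup.centralizer (N : Set X) = ⊥ := by
    rcases hN.2.2 _ (Subgroup.normal_inf_normal N (Subgroup.centralizer (N : Set X))) inf_le_left with h | h
    · exact h
    · exact absurd (fun a ha b hb => (Subgroup.mem_centralizer_iff.1 (h.ge ha).2 b hb).symm) hnab
  refine ⟨hsup, hZ, fun T hT => ?_⟩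
  have hTC : ∀ x : X, x ∈ T → (∀ t ∈ T, t * x = x * t) → x = 1 := fun x hx hxc => by
    refine Subgroup.mem_bot.1 (hZ.le ⟨hT.2.1 hx, Subgroup.mem_centralizer_iff.2 fun n hn => ?_⟩)
    have hle : N ≤ Subgroup.centralizer ({x} : Set X) := by
      conv_lhs => rw [← hsup]
      refine sSup_le fun T' hT' t ht => Subgroup.mem_centralizer_singleton_iff.2 ?_
      by_cases e : T = T'
      · subst e; exact hxc t ht
      · exact (hT.commute hT' e hx ht).symm
    exact Subgroup.mem_centralizer_singleton_iff.1 (hle hn)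
  refine ⟨?_, fun hc => hT.1 (eq_bot_iff.2 fun x hx => Subgroup.mem_bot.2 (hTC x hx fun t ht =>
    congrArg Subtype.val (hc.is_comm.comm (⟨t, ht⟩ : T) ⟨x, hx⟩))), eq_bot_iff.2 fun x hx =>
      Subgroup.mem_bot.2 (hTC x hx.1 (Subgroup.mem_centralizer_iff.1 hx.2))⟩
  haveI : Nontrivial T := (Subgroup.nontrivial_iff_ne_bot T).2 hT.1
  refine ⟨fun K hK => ?_⟩
  have hn : N ≤ Nz (K.map T.subtype) := by
    conv_lhs => rw [← hsup]
    refine sSup_le fun T' hT' t ht => ?_
    by_cases e : T = T'
    · subst e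
      refine Subgroup.le_normalizer_map (H := K) T.subtype ⟨⟨t, ht⟩, ?_, rfl⟩
      exact (Subgroup.normalizer_eq_top_iff.2 hK).ge (Subgroup.mem_top _)
    · refine (Subgroup.centralizer_le_normalizer _) (Subgroup.mem_centralizer_iff.2 ?_)
      rintro _ ⟨k, -, rfl⟩
      exact hT.commute hT' e k.2 ht
  rcases hT.2.2.2 _ (Subgroup.map_subtype_le _) hn with h | h
  · exact Or.inl ((Subgroup.map_eq_bot_iff_of_injective _ T.subtype_injective).1 h)
  · refine Or.inr (eq_top_iff.2 fun k _ => ?_)
    obtain ⟨k', hk', he⟩ := h.ge k.2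
    rwa [← Subtype.ext (he : (k' : X) = k)]

/-- Spreading on a semisimple minimal normal subgroup. -/
theorem exists_spread_semisimple (hSp : SpreadFact.{u}) (hIn : InnerFact.{u})
    (hS3 : ¬ Cfsg.Involves (Equiv.Perm (Fin 3)) X) (hsec : SecK X) {N A : Subgroup X}
    (hN : IsMinNormal N) (hnab : ¬ ∀ a ∈ N, ∀ b ∈ N, a * b = b * a)
    (hA : ∀ a ∈ A, a * a = 1) :
    ∃ x ∈ N, ∀ u ∈ A, u ∉ Subgroup.centralizer (N : Set X) → NonTwo (spreadEl u x) := by
  classical
  haveI := hN.1
  obtain ⟨hsup, hZ, hT⟩ := minIn_facts hN hnab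
  suffices h : ∀ (n : ℕ) (s : Set (Subgroup X)), s.ncard ≤ n → (∀ T ∈ s, MinIn N T) →
      (∀ a ∈ A, ∀ T ∈ s, cj a T ∈ s) → ∃ x ∈ sSup s, ∀ u ∈ A,
        u ∉ Subgroup.centralizer ((sSup s : Subgroup X) : Set X) → NonTwo (spreadEl u x) by
    obtain ⟨x, hx, h⟩ := h _ {T | MinIn N T} le_rfl (fun T h => h) fun a _ T h => MinIn.cj h a
    rw [hsup] at hx h
    exact ⟨x, hx, h⟩
  intro n
  induction n with
  | zero =>
    intro s hs _ _
    have : s = ∅ := (Set.ncard_eq_zero (Set.toFinite s)).1 (Nat.le_zero.1 hs)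
    subst this
    refine ⟨1, one_mem _, fun u _ hu => absurd ?_ hu⟩
    rw [sSup_empty]
    exact Subgroup.mem_centralizer_iff.2 fun y hy => by
      rw [Subgroup.mem_bot.1 hy, one_mul, mul_one]
  | succ n ih =>
    intro s hs hmem hinv
    rcases s.eq_empty_or_nonempty with rfl | ⟨T, hTs⟩
    · exact ih ∅ (by simp) (fun T h => h.elim) fun a _ T h => h.elim
    obtain ⟨hTsimp, hTna, hTZ⟩ := hT T (hmem T hTs)
    set O : Set (Subgroup X) := (fun a => cj a T) '' (A : Set X) with hO
    have hOs : O ⊆ s := by rintro _ ⟨a, ha, rfl⟩; exact hinv a ha T hTs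
    have hTO : T ∈ O := ⟨1, A.one_mem, Fusion.cj_one T⟩
    have hlt : (s \ O).ncard ≤ n := by
      have h1 := Set.ncard_lt_ncard (show s \ O ⊂ s from
        ⟨Set.sdiff_subset, fun h => (h hTs).2 hTO⟩) (Set.toFinite s)
      omega
    have hrest : ∀ a ∈ A, ∀ U ∈ s \ O, cj a U ∈ s \ O := fun a ha U hU =>
      ⟨hinv a ha U hU.1, by
        rintro ⟨b, hb, he⟩
        refine hU.2 ⟨a⁻¹ * b, A.mul_mem (A.inv_mem ha) hb, ?_⟩
        show cj (a⁻¹ * b) T = U
        rw [← Fusion.cj_cj, show cj b T = cj a U from he, Fusion.cj_inv_cj]⟩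
    obtain ⟨y, hy, hyu⟩ := ih _ hlt (fun U hU => hmem U hU.1) hrest
    set E := sSup O with hE
    set R := sSup (s \ O) with hR
    have hER : ∀ e ∈ E, ∀ r ∈ R, e * r = r * e := by
      have hle : E ≤ Subgroup.centralizer (R : Set X) := sSup_le fun U hU => by
        rw [← Subgroup.le_centralizer_iff]
        refine sSup_le fun U' hU' r hr => Subgroup.mem_centralizer_iff.2 fun e he => ?_
        exact (hmem U (hOs hU)).commute (hmem U' hU'.1) (fun h => hU'.2 (h ▸ hU)) he hr
      exact fun e he r hr => (Subgroup.mem_centralizer_iff.1 (hle he) r hr).symm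
    have hRN : R ≤ N := sSup_le fun U hU => (hmem U hU.1).2.1
    have hcap : ∀ z, z ∈ E → z ∈ R → z = 1 := fun z hz hzR => by
      refine Subgroup.mem_bot.1 (hZ.le ⟨hRN hzR, Subgroup.mem_centralizer_iff.2 fun n hn => ?_⟩)
      have hle : N ≤ Subgroup.centralizer ({z} : Set X) := by
        conv_lhs => rw [← hsup]
        refine sSup_le fun U hU t ht => Subgroup.mem_centralizer_singleton_iff.2 ?_
        by_cases hUO : U ∈ O
        · exact hER t (le_sSup hUO ht) z hzR
        · have hcz : z ∈ Subgroup.centralizer (U : Set X) := (sSup_le fun U' hU' e he =>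
            Subgroup.mem_centralizer_iff.2 fun t' ht' =>
              hU.commute (hmem U' (hOs hU')) (fun h => hUO (h ▸ hU')) ht' he :
              E ≤ Subgroup.centralizer (U : Set X)) hz
          exact Subgroup.mem_centralizer_iff.1 hcz t ht
      exact Subgroup.mem_centralizer_singleton_iff.1 (hle hn)
    -- the inner images
    let B : Subgroup X :=
      { carrier := {b | b ∈ T ∧ ∃ a ∈ A, a * b⁻¹ ∈ Subgroup.centralizer (T : Set X)}
        one_mem' := ⟨T.one_mem, 1, A.one_mem, by rw [inv_one, one_mul]; exact one_mem _⟩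
        mul_mem' := fun {b b'} ⟨hb, a, ha, h⟩ ⟨hb', a', ha', h'⟩ => ⟨T.mul_mem hb hb', a * a',
          A.mul_mem ha ha', by
            have hc : b⁻¹ * (a' * b'⁻¹) = a' * b'⁻¹ * b⁻¹ :=
              Subgroup.mem_centralizer_iff.1 h' _ (T.inv_mem hb)
            rw [show a * a' * (b * b')⁻¹ = a * (a' * b'⁻¹ * b⁻¹) by group, ← hc, ← mul_assoc]
            exact mul_mem h h'⟩
        inv_mem' := fun {b} ⟨hb, a, ha, h⟩ => ⟨T.inv_mem hb, a⁻¹, A.inv_mem ha, by
          have hc : b * (a * b⁻¹) = a * b⁻¹ * b := Subgroup.mem_centralizer_iff.1 h _ hb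
          have e : a⁻¹ * b⁻¹⁻¹ = (a * b⁻¹)⁻¹ := by
            rw [inv_inv, mul_inv_rev, inv_inv]
            have e' : a = b * (a * b⁻¹) := by rw [hc, inv_mul_cancel_right]
            conv_lhs => rw [e']
            group
          rw [e]
          exact Subgroup.inv_mem _ h⟩ }
    have hBsq : ∀ b ∈ B, b * b = 1 := by
      rintro b ⟨hb, a, ha, h⟩
      refine Subgroup.mem_bot.1 (hTZ.le ⟨T.mul_mem hb hb, ?_⟩)
      have hc : b * (a * b⁻¹) = a * b⁻¹ * b := Subgroup.mem_centralizer_iff.1 h _ hb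
      rw [inv_mul_cancel_right] at hc
      have e : b * b = ((a * b⁻¹) * (a * b⁻¹))⁻¹ := by
        apply eq_inv_of_mul_eq_one_right
        calc a * b⁻¹ * (a * b⁻¹) * (b * b) = a * b⁻¹ * (a * b) := by group
          _ = a * b⁻¹ * (b * (a * b⁻¹) * b) := by rw [hc]
          _ = a * a := by group
          _ = 1 := hA a ha
      rw [e]
      exact Subgroup.inv_mem _ (Subgroup.mul_mem _ h h)
    obtain ⟨x1, hx1, hx1B⟩ := hSp (T := T) hTsimp hTna
      (secK_simple hsec T hTsimp hTna) (fun h => hS3 (EvenLocal.involves_subgroup h))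
      (B.subgroupOf T) fun b hb => Subtype.ext (hBsq b hb)
    have hx1E : (x1 : X) ∈ E := le_sSup hTO x1.2
    refine ⟨x1 * y, (sSup s).mul_mem (le_sSup hTs x1.2) ((sSup_le_sSup Set.sdiff_subset : R ≤ sSup s) hy),
      fun u hu hus k hk => ?_⟩
    have hui : u⁻¹ = u := inv_eq_of_mul_eq_one_right (hA u hu)
    have hcjR : ∀ r ∈ R, u * r * u ∈ R := by
      intro r hr
      have hle : cj u R ≤ R := by
        rw [Fusion.cj, Subgroup.map_le_iff_le_comap, hR]
        refine sSup_le fun U hU => ?_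
        rw [← Subgroup.map_le_iff_le_comap]
        exact le_sSup (hrest u hu U hU)
      have := hle (conj_mem_cj.2 hr : u * r * u⁻¹ ∈ cj u R)
      rwa [hui] at this
    have hcjE : ∀ e ∈ E, u * e * u ∈ E := by
      intro e he
      have hle : cj u E ≤ E := by
        rw [Fusion.cj, Subgroup.map_le_iff_le_comap, hE]
        refine sSup_le ?_
        rintro _ ⟨a, ha, rfl⟩
        rw [← Subgroup.map_le_iff_le_comap]
        refine le_sSup ⟨u * a, A.mul_mem hu ha, ?_⟩
        exact (Fusion.cj_cj u a T).symm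
      have := hle (conj_mem_cj.2 he : u * e * u⁻¹ ∈ cj u E)
      rwa [hui] at this
    set e := u * ((x1 : X)⁻¹ * u * x1) with he
    set r := u * (y⁻¹ * u * y) with hr
    have heE : e ∈ E := by
      rw [he, show u * ((x1 : X)⁻¹ * u * x1) = u * (x1 : X)⁻¹ * u * x1 by group]
      exact E.mul_mem (hcjE _ (E.inv_mem hx1E)) hx1E
    have hrR : r ∈ R := by
      rw [hr, show u * (y⁻¹ * u * y) = u * y⁻¹ * u * y by group]
      exact R.mul_mem (hcjR _ (R.inv_mem hy)) hy
    have hprod : spreadEl u ((x1 : X) * y) = e * r := by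
      have h1 : u * y⁻¹ * u ∈ R := hcjR _ (R.inv_mem hy)
      calc spreadEl u ((x1 : X) * y) = (u * y⁻¹ * (u * u) * (x1 : X)⁻¹ * u) * (x1 : X) * y := by
            rw [hA u hu, spreadEl]; group
        _ = (u * y⁻¹ * u) * e * y := by rw [he]; group
        _ = e * (u * y⁻¹ * u) * y := by rw [hER e heE _ h1]
        _ = e * r := by rw [hr]; group
    rw [hprod, (show Commute e r from hER e heE r hrR).mul_pow] at hk
    have he1 : e ^ 2 ^ k = 1 := hcap _ (E.pow_mem heE _) (by
      rw [mul_eq_one_iff_eq_inv] at hk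
      rw [hk]; exact R.inv_mem (R.pow_mem hrR _))
    have hr1 : r ^ 2 ^ k = 1 := by rwa [he1, one_mul] at hk
    by_cases hnT : u ∈ Nz T
    · obtain ⟨b, hb, hbc⟩ := hIn hS3 T hTsimp hTna (secK_simple hsec T hTsimp hTna) u (hA u hu) hnT
      set c := u * b⁻¹ with hc
      have huc : u = c * b := by rw [hc, inv_mul_cancel_right]
      have hbB : b ∈ B := ⟨hb, u, hu, hbc⟩
      by_cases hb1 : b = 1
      · -- `u` centralizes the orbit
        have huT : u ∈ Subgroup.centralizer (T : Set X) := by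
          rwa [hc, hb1, inv_one, mul_one] at hbc
        have huE : E ≤ Subgroup.centralizer ({u} : Set X) := sSup_le (by
          rintro _ ⟨a, ha, rfl⟩ _ ⟨t, ht, rfl⟩
          refine Subgroup.mem_centralizer_singleton_iff.2 ?_
          show a * t * a⁻¹ * u = u * (a * t * a⁻¹)
          have h1 : Commute u a := FusionAux.NoOffender.commute_of_sq hA hu ha
          have h2 : Commute u t := (Subgroup.mem_centralizer_iff.1 huT t ht).symm
          exact (((h1.mul_right h2).mul_right h1.inv_right).eq).symm)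
        refine hyu u hu (fun huR => hus ?_) k hr1
        rw [Subgroup.mem_centralizer_iff]
        intro z hz
        have hle : sSup s ≤ Subgroup.centralizer ({u} : Set X) := sSup_le fun U hU => by
          by_cases hUO : U ∈ O
          · exact (le_sSup hUO).trans huE
          · intro t ht
            exact Subgroup.mem_centralizer_singleton_iff.2
              (Subgroup.mem_centralizer_iff.1 huR t ((le_sSup (show U ∈ s \ O from ⟨hU, hUO⟩) : U ≤ R) ht))
        exact Subgroup.mem_centralizer_singleton_iff.1 (hle hz)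
      · have hcc : ∀ t ∈ T, t * c = c * t := Subgroup.mem_centralizer_iff.1 hbc
        have hc2 : c * c = 1 := by
          have h1 : (c * b) * (c * b) = 1 := by rw [← huc]; exact hA u hu
          calc c * c = c * c * (b * b) := by rw [hBsq b hbB, mul_one]
            _ = c * (c * b) * b := by group
            _ = c * (b * c) * b := by rw [hcc b hb]
            _ = (c * b) * (c * b) := by group
            _ = 1 := h1
        have key : e = b * ((x1 : X)⁻¹ * b * x1) := by
          rw [he, huc]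
          calc c * b * ((x1 : X)⁻¹ * (c * b) * x1) = c * (b * (x1 : X)⁻¹ * c) * b * x1 := by group
            _ = c * (c * (b * (x1 : X)⁻¹)) * b * x1 := by
                rw [hcc _ (T.mul_mem hb (T.inv_mem x1.2))]
            _ = c * c * (b * ((x1 : X)⁻¹ * b * x1)) := by group
            _ = _ := by rw [hc2, one_mul]
        refine hx1B ⟨b, hb⟩ hbB (fun h => hb1 (congrArg Subtype.val h)) k (Subtype.ext ?_)
        simpa [key] using he1
    · have hT' : MinIn N (cj u T) := MinIn.cj (hmem T hTs) u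
      have hne : cj u T ≠ T := fun h => hnT (CF.mem_Nz.2 h)
      set p := u * (x1 : X)⁻¹ * u with hp
      have hpT : p ∈ cj u T := by
        have := (conj_mem_cj (g := u)).2 (T.inv_mem x1.2)
        rwa [hui] at this
      have hcomm : Commute p (x1 : X) := hT'.commute (hmem T hTs) hne hpT x1.2
      have : e = p * x1 := by rw [he, hp]; group
      rw [this, hcomm.mul_pow] at he1
      have hbot : ((x1 : X) ^ 2 ^ k) ∈ T ⊓ cj u T := ⟨T.pow_mem x1.2 _, by
        rw [eq_inv_of_mul_eq_one_right he1]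
        exact Subgroup.inv_mem _ (Subgroup.pow_mem _ hpT _)⟩
      refine hx1 k (Subtype.ext ?_)
      have h1 : ((x1 : X) ^ 2 ^ k) = 1 := Subgroup.mem_bot.1 (hTZ.le ⟨hbot.1,
        Subgroup.mem_centralizer_iff.2 fun t ht => (hmem T hTs).commute hT' hne.symm ht hbot.2⟩)
      rw [SubgroupClass.coe_pow, h1]
      rfl
where
  secK_simple {X : Type u} [Group X] (hsec : SecK X) (T : Subgroup X) (h1 : IsSimpleGroup T)
      (h2 : ¬ IsMulCommutative T) : Cfsg.IsSuzukiOrPSL2OddPowerThree T := by
    let q := QuotientGroup.quotientBot (G := T)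
    have hs : IsSimpleGroup (T ⧸ (⊥ : Subgroup T)) := by
      haveI : Nontrivial (T ⧸ (⊥ : Subgroup T)) := q.symm.injective.nontrivial
      exact IsSimpleGroup.isSimpleGroup_of_surjective q.symm.toMonoidHom q.symm.surjective
    have hn : ¬ IsMulCommutative (T ⧸ (⊥ : Subgroup T)) := fun hc => h2 ⟨⟨fun a b => by
      apply q.symm.injective
      rw [map_mul, map_mul, hc.is_comm.comm]⟩⟩
    rcases hsec T ⊥ hs hn with ⟨F, hF1, hF2, m, hm, hc, ⟨e'⟩⟩ | ⟨F, _, _, n, hF, ⟨e'⟩⟩
    · exact Or.inl ⟨F, hF1, hF2, m, hm, hc, ⟨q.symm.trans e'⟩⟩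
    · exact Or.inr ⟨F, inferInstance, inferInstance, n, hF, ⟨q.symm.trans e'⟩⟩

end Cfsg.Agent.TwoFact
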